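import Mathlib

/-!
# Two lemmas for commuting last powers

* An operator `u` with `(u - 1) (u - e) = 0`, `e` a central operator with `e - 1`, `e ^ 2 - 1`, `e`
  invertible, commutes with every `g` such that `[u, g]` commutes with `u`, `g`.
* In a finite `p`-group generated by `a`, `b`, modulo a normal subgroup `K`: if all elements of the second
  centre commute with `a`, `b` then `[a, b] ∈ K`.
-/

set_option autoImplicit false
set_option linter.style.haveILetI false
set_option linter.deprecated false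

namespace Cfsg.Agent.Lib.LastPow.LinAlg

open scoped commutatorElement

theorem ring_id {R : Type*} [CommRing R] (u t e : R) (h0 : (u - 1) * (u - e) = 0)
    (h1 : (t * u - 1) * (t * u - e) = 0) (h2 : (t ^ 2 * u - 1) * (t ^ 2 * u - e) = 0) :
    e ^ 2 * (e - 1) * (e ^ 2 - 1) * (t - 1) = 0 := by
  linear_combination
    (-(u * t ^ 3 * e ^ 3) - 2 * (u * t ^ 3 * e ^ 2) - u * t ^ 3 * e - u * t ^ 2 * e ^ 3 - u * t ^ 2 * e +
      t ^ 2 * e ^ 3 + t ^ 2 * e ^ 2 + t * e ^ 4 + t * e ^ 3 + t * e ^ 2 + t * e) * h0 +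
    (u * t ^ 2 * e ^ 3 + u * t ^ 2 * e + u * t * e ^ 3 + 2 * (u * t * e ^ 2) + u * t * e + u * e ^ 3 + u * e -
      t ^ 2 * e ^ 3 - t ^ 2 * e ^ 2 - 2 * (t * e ^ 3) - 2 * (t * e ^ 2) - e ^ 4 - e) * h1 +
    (-(u * e ^ 3) - u * e + e ^ 3 + e ^ 2) * h2

/-- The ring form. -/
theorem end_id {A : Type*} [Ring A] (U T E G G' : A) (hGG' : G * G' = 1) (hG'G : G' * G = 1)
    (hTU : T * U = U * T) (hTG : T * G = G * T) (hEU : E * U = U * E) (hEG : E * G = G * E)
    (hET : E * T = T * E) (hUG : U * G = T * G * U) (h0 : (U - 1) * (U - E) = 0) :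
    E ^ 2 * (E - 1) * (E ^ 2 - 1) * (T - 1) = 0 := by
  classical
  have hcE : G' * E * G = E := by
    rw [mul_assoc, hEG, ← mul_assoc, hG'G, one_mul]
  have hcT : G' * T * G = T := by
    rw [mul_assoc, hTG, ← mul_assoc, hG'G, one_mul]
  have hcU : G' * U * G = T * U := by
    rw [mul_assoc, hUG, ← mul_assoc, ← mul_assoc, mul_assoc G', hTG, ← mul_assoc, hG'G, one_mul]
  have key : ∀ X : A, (X - 1) * (X - E) = 0 → (G' * X * G - 1) * (G' * X * G - E) = 0 := by
    intro X hX
    have e1 : G' * X * G - 1 = G' * (X - 1) * G := by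
      rw [mul_sub, sub_mul, mul_one, hG'G]
    have e2 : G' * X * G - E = G' * (X - E) * G := by
      rw [mul_sub, sub_mul, hcE]
    rw [e1, e2]
    calc G' * (X - 1) * G * (G' * (X - E) * G) = G' * (X - 1) * (G * G') * (X - E) * G := by
          simp only [mul_assoc]
      _ = G' * ((X - 1) * (X - E)) * G := by
          rw [hGG', mul_one]
          simp only [mul_assoc]
      _ = 0 := by rw [hX, mul_zero, zero_mul]
  have h1 : (T * U - 1) * (T * U - E) = 0 := by
    have := key U h0
    rwa [hcU] at this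
  have h2 : (T ^ 2 * U - 1) * (T ^ 2 * U - E) = 0 := by
    have := key _ h1
    have e : G' * (T * U) * G = T ^ 2 * U := by
      calc G' * (T * U) * G = (G' * T * G) * (G' * U * G) := by
            calc G' * (T * U) * G = G' * T * (G * G') * U * G := by rw [hGG']; simp only [mul_assoc, mul_one]
              _ = _ := by simp only [mul_assoc]
        _ = T ^ 2 * U := by rw [hcT, hcU, pow_two, mul_assoc]
    rwa [e] at this
  -- the commutative subring
  let s : Set A := {U, T, E}
  have hs : ∀ x ∈ s, ∀ y ∈ s, x * y = y * x := by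
    intro x hx y hy
    simp only [s, Set.mem_insert_iff, Set.mem_singleton_iff] at hx hy
    rcases hx with rfl | rfl | rfl <;> rcases hy with rfl | rfl | rfl <;>
      first | rfl | assumption | exact Eq.symm (by assumption)
  letI : CommRing (Subring.closure s) := Subring.closureCommRingOfComm hs
  let u : Subring.closure s := ⟨U, Subring.subset_closure (by simp [s])⟩
  let t : Subring.closure s := ⟨T, Subring.subset_closure (by simp [s])⟩
  let e : Subring.closure s := ⟨E, Subring.subset_closure (by simp [s])⟩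
  have h0' : (u - 1) * (u - e) = 0 := Subtype.ext h0
  have h1' : (t * u - 1) * (t * u - e) = 0 := Subtype.ext h1
  have h2' : (t ^ 2 * u - 1) * (t ^ 2 * u - e) = 0 := Subtype.ext h2
  have := ring_id u t e h0' h1' h2'
  exact congrArg Subtype.val this

/-- The operator form. -/
theorem tau_trivial {M : Type*} [AddCommGroup M] (U T E G G' : AddMonoid.End M) (hGG' : G * G' = 1)
    (hG'G : G' * G = 1) (hTU : T * U = U * T) (hTG : T * G = G * T) (hEU : E * U = U * E)
    (hEG : E * G = G * E) (hET : E * T = T * E) (hUG : U * G = T * G * U) (h0 : (U - 1) * (U - E) = 0)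
    (hE : ∀ v, E v = 0 → v = 0) (hE1 : ∀ v, E v = v → v = 0) (hE2 : ∀ v, E (E v) = v → v = 0) :
    ∀ v, T v = v := by
  intro v
  have h := end_id U T E G G' hGG' hG'G hTU hTG hEU hEG hET hUG h0
  rw [pow_two] at h
  set w := T v - v with hw
  set w' := E (E w) - w with hw'
  set w'' := E w' - w' with hw''
  have h1 : E (E w'') = 0 := by
    have := DFunLike.congr_fun h v
    exact this
  have h2 : w'' = 0 := hE _ (hE _ h1)
  have h3 : w' = 0 := hE1 _ (sub_eq_zero.mp h2)
  have h4 : w = 0 := hE2 _ (sub_eq_zero.mp h3)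
  exact sub_eq_zero.mp h4

/-- Second centre criterion. -/
theorem commutator_mem_of_step {Γ : Type*} [Group Γ] [Finite Γ] {p : ℕ} [Fact p.Prime] (hΓ : IsPGroup p Γ)
    (K : Subgroup Γ) [K.Normal] (a b : Γ) (hgen : Subgroup.closure {a, b} = ⊤)
    (h : ∀ g : Γ, (∀ x y : Γ, ⁅⁅g, x⁆, y⁆ ∈ K) → ⁅a, g⁆ ∈ K ∧ ⁅b, g⁆ ∈ K) : ⁅a, b⁆ ∈ K := by
  classical
  let π : Γ →* Γ ⧸ K := QuotientGroup.mk' K
  have hπ : Function.Surjective π := QuotientGroup.mk'_surjective K
  have hπK : ∀ x, π x = 1 ↔ x ∈ K := fun x => QuotientGroup.eq_one_iff x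
  have hΓ' : IsPGroup p (Γ ⧸ K) := hΓ.of_surjective π hπ
  set Z := Subgroup.center (Γ ⧸ K) with hZ
  have hZtop : Z = ⊤ := by
    by_contra hne
    haveI : Nontrivial ((Γ ⧸ K) ⧸ Z) := QuotientGroup.nontrivial_iff.mpr hne
    have hp2 : IsPGroup p ((Γ ⧸ K) ⧸ Z) := hΓ'.of_surjective (QuotientGroup.mk' Z) (QuotientGroup.mk'_surjective Z)
    haveI := hp2.center_nontrivial
    obtain ⟨w, hw⟩ := exists_ne (1 : Subgroup.center ((Γ ⧸ K) ⧸ Z))
    obtain ⟨gb, hgb⟩ := QuotientGroup.mk_surjective (w : (Γ ⧸ K) ⧸ Z)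
    obtain ⟨g, rfl⟩ := hπ gb
    have hg : ∀ x y : Γ, ⁅⁅g, x⁆, y⁆ ∈ K := by
      intro x y
      rw [← hπK]
      have h1 : ⁅π g, π x⁆ ∈ Z := by
        rw [← QuotientGroup.eq_one_iff, commutatorElement_def]
        simp only [QuotientGroup.mk_mul, QuotientGroup.mk_inv]
        rw [hgb]
        have h2 := Subgroup.mem_center_iff.mp w.2 (π x : (Γ ⧸ K) ⧸ Z)
        rw [← h2]
        group
      rw [map_commutatorElement, map_commutatorElement, commutatorElement_eq_one_iff_mul_comm]
      exact (Subgroup.mem_center_iff.mp h1 (π y)).symm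
    obtain ⟨h1, h2⟩ := h g hg
    have hcomm1 : π g * π a = π a * π g := by
      have := (hπK _).mpr h1
      rw [map_commutatorElement, commutatorElement_eq_one_iff_mul_comm] at this
      exact this.symm
    have hcomm2 : π g * π b = π b * π g := by
      have := (hπK _).mpr h2
      rw [map_commutatorElement, commutatorElement_eq_one_iff_mul_comm] at this
      exact this.symm
    have hall : ∀ x : Γ, π g * π x = π x * π g := by
      intro x
      have hx : x ∈ Subgroup.closure {a, b} := by rw [hgen]; trivial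
      induction hx using Subgroup.closure_induction with
      | mem y hy =>
        rcases hy with rfl | hy
        · exact hcomm1
        · rw [Set.mem_singleton_iff] at hy
          subst hy
          exact hcomm2
      | one => simp
      | mul y z _ _ hy hz =>
        rw [map_mul, ← mul_assoc, hy, mul_assoc, hz, mul_assoc]
      | inv y _ hy =>
        rw [map_inv]
        calc π g * (π y)⁻¹ = (π y)⁻¹ * (π y * π g) * (π y)⁻¹ := by group
          _ = (π y)⁻¹ * (π g * π y) * (π y)⁻¹ := by rw [hy]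
          _ = (π y)⁻¹ * π g := by group
    have hgZ : π g ∈ Z := by
      rw [hZ, Subgroup.mem_center_iff]
      intro y
      obtain ⟨x, rfl⟩ := hπ y
      exact (hall x).symm
    apply hw
    apply Subtype.ext
    rw [← hgb]
    exact (QuotientGroup.eq_one_iff _).mpr hgZ
  rw [← hπK]
  have hc : π a ∈ Z := by rw [hZtop]; trivial
  have h1 := Subgroup.mem_center_iff.mp hc (π b)
  rw [map_commutatorElement, commutatorElement_eq_one_iff_mul_comm]
  exact h1.symm

end Cfsg.Agent.Lib.LastPow.LinAlg
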