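import Mathlib
import Cfsg.Agent.Lib.LastPow.LinAlg
import Cfsg.Agent.Lib.HallHigman.Block

/-!
# Last powers commute on an abelian section

`F` a finite abelian `q`-group with an action of a `p`-group `P`, `p` odd. Let `b, b' ∈ P`, `u = b ^ p ^ (n - 1)`,
`u' = b' ^ p ^ (n' - 1)`, `b ^ p ^ n = 1` etc. If `p ^ n = q ^ m + 1`, `|[F, u]| = q ^ (2 m)` and likewise for
`b'`, then `[u, u']` acts trivially on `F`.
-/

set_option autoImplicit false
set_option linter.style.haveILetI false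
set_option linter.unusedSectionVars false

namespace Cfsg.Agent.Lib.LastPow.Action

open scoped commutatorElement
open Cfsg.Agent.Lib.LastPow.LinAlg

section arith

/-- A permutation all of whose nontrivial powers below `N` are fixed point free. -/
theorem card_dvd_of_free_pow {X : Type*} [Finite X] (f : Equiv.Perm X) (N : ℕ) (hN : 0 < N) (hf : f ^ N = 1)
    (hfree : ∀ x, ∀ i, 0 < i → i < N → (f ^ i) x ≠ x) : N ∣ Nat.card X := by
  classical
  by_cases hX : IsEmpty X
  · simp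
  rw [not_isEmpty_iff] at hX
  obtain ⟨x₀⟩ := hX
  have hord : orderOf f = N := by
    have h1 : orderOf f ∣ N := orderOf_dvd_of_pow_eq_one hf
    have h2 : 0 < orderOf f := Nat.pos_of_dvd_of_pos h1 hN
    by_contra hne
    have h3 : orderOf f < N := lt_of_le_of_ne (Nat.le_of_dvd hN h1) hne
    apply hfree x₀ _ h2 h3
    rw [pow_orderOf_eq_one]
    rfl
  let Γ := Subgroup.zpowers f
  have hstab : ∀ x : X, MulAction.stabilizer Γ x = ⊥ := by
    intro x
    rw [eq_bot_iff]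
    rintro ⟨γ, hγ⟩ hg
    rw [Subgroup.mem_bot]
    obtain ⟨k, hk⟩ := (mem_powers_iff_mem_zpowers (x := f) (y := γ)).mpr hγ
    have hfix : γ x = x := hg
    apply Subtype.ext
    show γ = 1
    have hk2 : γ = f ^ (k % N) := by
      rw [← hk]
      simp only
      conv_lhs => rw [← Nat.div_add_mod k N, pow_add, pow_mul, hf, one_pow, one_mul]
    by_cases h0 : k % N = 0
    · rw [hk2, h0, pow_zero]
    · exfalso
      apply hfree x (k % N) (Nat.pos_of_ne_zero h0) (Nat.mod_lt _ hN)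
      rw [← hk2]
      exact hfix
  let e := MulAction.selfEquivOrbitsQuotientProd (G := Γ) (X := X) hstab
  have hcard : Nat.card X = Nat.card (MulAction.orbitRel.Quotient Γ X) * Nat.card Γ := by
    rw [Nat.card_congr e, Nat.card_prod]
  have hΓ : Nat.card Γ = N := by
    rw [Nat.card_zpowers, hord]
  rw [hcard, hΓ]
  exact Dvd.intro_left _ rfl

theorem exists_orbit_not_dvd {T X : Type*} [Group T] [MulAction T X] [Finite X] (N : ℕ)
    (h : ¬ N ∣ Nat.card X) : ∃ x : X, ¬ N ∣ Nat.card (MulAction.orbit T x) := by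
  classical
  by_contra hcon
  push Not at hcon
  apply h
  letI : Fintype (MulAction.orbitRel.Quotient T X) := Fintype.ofFinite _
  rw [Nat.card_congr (MulAction.selfEquivSigmaOrbits T X), Nat.card_sigma]
  apply Finset.dvd_sum
  intro ω _
  exact hcon _

theorem pow_eq_of_dvd_sub {q m i : ℕ} (hq : q.Prime) (hm : 1 ≤ m) (hi : i ≤ 2 * m) (hd : q ^ m + 1 ∣ q ^ i - 1) :
    i = 0 ∨ i = 2 * m := by
  by_contra hcon
  push Not at hcon
  obtain ⟨h0, h1⟩ := hcon
  have hq2 := hq.two_le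
  have hqi : 2 ≤ q ^ i := le_trans hq2 (Nat.le_self_pow h0 q)
  by_cases him : i ≤ m
  · have h2 : q ^ i ≤ q ^ m := Nat.pow_le_pow_right hq.pos him
    have h3 := Nat.le_of_dvd (by omega) hd
    omega
  · obtain ⟨j, rfl⟩ : ∃ j, i = m + j := ⟨i - m, by omega⟩
    have hj0 : 0 < j := by omega
    have hjm : j < m := by omega
    have hqj : 1 ≤ q ^ j := Nat.one_le_pow _ _ hq.pos
    have hjlt : q ^ j < q ^ m := Nat.pow_lt_pow_right hq.one_lt hjm
    have e : q ^ j * (q ^ m + 1) = (q ^ (m + j) - 1) + (q ^ j + 1) := by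
      have h5 : q ^ (m + j) = q ^ j * q ^ m := by rw [pow_add, mul_comm]
      have h6 : 1 ≤ q ^ (m + j) := Nat.one_le_pow _ _ hq.pos
      rw [mul_add, mul_one, ← h5]
      omega
    have h7 : q ^ m + 1 ∣ q ^ j + 1 := by
      have h8 : q ^ m + 1 ∣ (q ^ (m + j) - 1) + (q ^ j + 1) := by
        rw [← e]
        exact Dvd.intro_left _ rfl
      exact (Nat.dvd_add_right hd).mp h8
    have h9 := Nat.le_of_dvd (by omega) h7
    omega

end arith

variable {F : Type*} [AddCommGroup F] [Finite F] {P : Type*} [Group P] [DistribMulAction P F]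
variable {p q : ℕ} [hp : Fact p.Prime] [hq : Fact q.Prime]

/-- The commutator `[F, u]`. -/
def cm (F : Type*) [AddCommGroup F] {P : Type*} [Group P] [DistribMulAction P F] (u : P) : AddSubgroup F :=
  (DistribMulAction.toAddMonoidEnd P F u - 1).range

theorem mem_cm {u : P} {x : F} : x ∈ cm F u ↔ ∃ v : F, u • v - v = x := Iff.rfl

theorem eq_zero_of_nsmul (hcop : (Nat.card F).Coprime p) {x : F} (h : p • x = 0) : x = 0 := by
  have h1 : addOrderOf x ∣ p := addOrderOf_dvd_of_nsmul_eq_zero h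
  have h2 : addOrderOf x ∣ Nat.card F := addOrderOf_dvd_natCard x
  have h3 : addOrderOf x = 1 := Nat.eq_one_of_dvd_coprimes hcop h2 h1
  exact AddMonoid.addOrderOf_eq_one_iff.mp h3

/-- Powers on a fixed point of `u`. -/
theorem pow_smul_of_fix {u : P} {v x : F} (hv : u • v - v = x) (hx : u • x = x) (k : ℕ) :
    u ^ k • v = v + k • x := by
  induction k with
  | zero => simp
  | succ k ih =>
    have hk : u • (k • x) = k • (u • x) := map_nsmul (DistribSMul.toAddMonoidHom F u) k x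
    rw [pow_succ', mul_smul, ih, smul_add, hk, hx, succ_nsmul]
    have : u • v = v + x := by rw [← hv]; abel
    rw [this]
    abel

/-- No fixed points on `[F, u]`. -/
theorem fixed_cm (hcop : (Nat.card F).Coprime p) {u : P} (hu : u ^ p = 1) {x : F} (hx : x ∈ cm F u)
    (hfix : u • x = x) : x = 0 := by
  obtain ⟨v, hv⟩ := mem_cm.mp hx
  have h1 := pow_smul_of_fix hv hfix p
  rw [hu, one_smul] at h1
  have h2 : p • x = 0 := by
    have : v + p • x = v + 0 := by rw [← h1, add_zero]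
    exact add_left_cancel this
  exact eq_zero_of_nsmul hcop h2

theorem last_pow_p {b : P} {n : ℕ} (hb : b ^ p ^ n = 1) (hn : 1 ≤ n) : (b ^ p ^ (n - 1)) ^ p = 1 := by
  rw [← pow_mul, ← pow_succ, show n - 1 + 1 = n by omega, hb]

/-- `b` acts freely on `[F, u] \ 0`. -/
theorem pow_smul_ne (hcop : (Nat.card F).Coprime p) {b : P} {n : ℕ} (hb : b ^ p ^ n = 1) (hn : 1 ≤ n) {x : F}
    (hx : x ∈ cm F (b ^ p ^ (n - 1))) (hx0 : x ≠ 0) {i : ℕ} (hi0 : 0 < i) (hi : i < p ^ n) : b ^ i • x ≠ x := by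
  intro hfix
  have hS : b ^ i ∈ MulAction.stabilizer P x := hfix
  obtain ⟨a, _, ha2, ha3⟩ := Cfsg.Agent.Lib.HallHigman.Block.exists_pow_mem_of_pow_mem (p := p) hb hi0 hi hS
  apply hx0
  refine fixed_cm hcop (last_pow_p hb hn) hx ?_
  have e : b ^ p ^ (n - 1) = (b ^ p ^ a) ^ p ^ (n - 1 - a) := by
    rw [← pow_mul, ← pow_add]
    congr 2
    omega
  have h2 : b ^ p ^ (n - 1) ∈ MulAction.stabilizer P x := by
    rw [e]
    exact pow_mem ha3 _
  exact h2

/-- An invariant subgroup of `[F, u]` has order `≡ 1 mod p ^ n`. -/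
theorem dvd_card_sub_one (hcop : (Nat.card F).Coprime p) {b : P} {n : ℕ} (hb : b ^ p ^ n = 1) (hn : 1 ≤ n)
    (A₀ : AddSubgroup F) (hle : A₀ ≤ cm F (b ^ p ^ (n - 1))) (hinv : ∀ x ∈ A₀, b • x ∈ A₀) :
    p ^ n ∣ Nat.card A₀ - 1 := by
  classical
  have hN : 0 < p ^ n := pow_pos hp.out.pos n
  have hinvp : ∀ k : ℕ, ∀ x ∈ A₀, b ^ k • x ∈ A₀ := by
    intro k
    induction k with
    | zero => simp
    | succ k ih =>
      intro x hx
      rw [pow_succ', mul_smul]
      exact hinv _ (ih x hx)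
  have hbinv : b⁻¹ = b ^ (p ^ n - 1) := by
    apply inv_eq_of_mul_eq_one_left
    rw [← pow_succ, Nat.sub_add_cancel hN, hb]
  have hinv' : ∀ x ∈ A₀, b⁻¹ • x ∈ A₀ := by
    intro x hx
    rw [hbinv]
    exact hinvp _ x hx
  let X := {y : A₀ // y ≠ 0}
  let f : Equiv.Perm X :=
    { toFun := fun y => ⟨⟨b • (y.1 : F), hinv _ y.1.2⟩, by
        intro h
        have h1 : b • (y.1 : F) = 0 := congrArg Subtype.val h
        have h2 : (y.1 : F) = 0 := (smul_eq_zero_iff_eq b).mp h1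
        exact y.2 (Subtype.ext h2)⟩
      invFun := fun y => ⟨⟨b⁻¹ • (y.1 : F), hinv' _ y.1.2⟩, by
        intro h
        have h1 : b⁻¹ • (y.1 : F) = 0 := congrArg Subtype.val h
        have h2 : (y.1 : F) = 0 := (smul_eq_zero_iff_eq b⁻¹).mp h1
        exact y.2 (Subtype.ext h2)⟩
      left_inv := fun y => by
        apply Subtype.ext
        apply Subtype.ext
        simp
      right_inv := fun y => by
        apply Subtype.ext
        apply Subtype.ext
        simp }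
  have hfpow : ∀ (k : ℕ) (y : X), (((f ^ k) y).1 : F) = b ^ k • (y.1 : F) := by
    intro k y
    induction k with
    | zero => simp
    | succ k ih =>
      rw [pow_succ', Equiv.Perm.mul_apply, pow_succ', mul_smul, ← ih]
      rfl
  have hf1 : f ^ p ^ n = 1 := by
    ext y
    rw [hfpow, hb, one_smul]
    rfl
  have hfree : ∀ y, ∀ i, 0 < i → i < p ^ n → (f ^ i) y ≠ y := by
    intro y i hi0 hi h
    have h1 : b ^ i • (y.1 : F) = y.1 := by
      rw [← hfpow, h]
    have hy0 : (y.1 : F) ≠ 0 := fun h0 => y.2 (Subtype.ext h0)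
    exact pow_smul_ne hcop hb hn (hle y.1.2) hy0 hi0 hi h1
  have hd := card_dvd_of_free_pow f (p ^ n) hN hf1 hfree
  have hc : Nat.card X = Nat.card A₀ - 1 := by
    letI : Fintype A₀ := Fintype.ofFinite _
    rw [Nat.card_eq_fintype_card, Nat.card_eq_fintype_card]
    exact Set.card_ne_eq (0 : A₀)
  rwa [hc] at hd

/-- Irreducibility of `[F, u]` for `b`. -/
theorem eq_bot_or_eq (hcop : (Nat.card F).Coprime p) {b : P} {n m : ℕ} (hb : b ^ p ^ n = 1) (hn : 1 ≤ n)
    (hm : 1 ≤ m) (hD : p ^ n = q ^ m + 1) (hA : Nat.card (cm F (b ^ p ^ (n - 1))) = q ^ (2 * m))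
    (A₀ : AddSubgroup F) (hle : A₀ ≤ cm F (b ^ p ^ (n - 1))) (hinv : ∀ x ∈ A₀, b • x ∈ A₀) :
    A₀ = ⊥ ∨ A₀ = cm F (b ^ p ^ (n - 1)) := by
  classical
  have hd := dvd_card_sub_one hcop hb hn A₀ hle hinv
  have h1 : Nat.card A₀ ∣ q ^ (2 * m) := by
    rw [← hA]
    exact AddSubgroup.card_dvd_of_le hle
  obtain ⟨i, hi, hi2⟩ := (Nat.dvd_prime_pow hq.out).mp h1
  rw [hi2, hD] at hd
  rcases pow_eq_of_dvd_sub hq.out hm hi hd with rfl | rfl
  · left
    rw [pow_zero] at hi2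
    exact (AddSubgroup.card_eq_one).mp hi2
  · right
    apply AddSubgroup.eq_of_le_of_card_ge hle
    rw [hA, hi2]

/-- The stabiliser of a subgroup. -/
def stabA {F : Type*} [AddCommGroup F] {P : Type*} [Group P] [Finite P] [DistribMulAction P F]
    (A : AddSubgroup F) : Subgroup P where
  carrier := {t | ∀ x ∈ A, t • x ∈ A}
  mul_mem' := fun ha hb x hx => by
    rw [mul_smul]
    exact ha _ (hb x hx)
  one_mem' := fun x hx => by simpa using hx
  inv_mem' := by
    intro t ht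
    have hpow : ∀ k : ℕ, ∀ x ∈ A, t ^ k • x ∈ A := by
      intro k
      induction k with
      | zero => simp
      | succ k ih =>
        intro x hx
        rw [pow_succ', mul_smul]
        exact ht _ (ih x hx)
    have e : t⁻¹ = t ^ (orderOf t - 1) := by
      apply inv_eq_of_mul_eq_one_left
      rw [← pow_succ, Nat.sub_add_cancel (orderOf_pos t), pow_orderOf_eq_one]
    intro x hx
    rw [e]
    exact hpow _ x hx

/-- An element commuting with `b` and preserving `[F, u]` acts as a power of `b`. -/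
theorem exists_pow_smul_eq [Finite P] (hp2 : p ≠ 2) (hP : IsPGroup p P) (hcop : (Nat.card F).Coprime p) {b : P} {n m : ℕ}
    (hb : b ^ p ^ n = 1) (hn : 1 ≤ n) (hm : 1 ≤ m) (hD : p ^ n = q ^ m + 1)
    (hA : Nat.card (cm F (b ^ p ^ (n - 1))) = q ^ (2 * m)) {z : P}
    (hzA : ∀ x ∈ cm F (b ^ p ^ (n - 1)), z • x ∈ cm F (b ^ p ^ (n - 1)))
    (hzb : ∀ x ∈ cm F (b ^ p ^ (n - 1)), z • (b • x) = b • (z • x)) :
    ∃ i : ℕ, ∀ x ∈ cm F (b ^ p ^ (n - 1)), z • x = b ^ i • x := by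
  classical
  set A := cm F (b ^ p ^ (n - 1)) with hAdef
  have hN : 0 < p ^ n := pow_pos hp.out.pos n
  -- `b` preserves `A`
  have hbA : ∀ x ∈ A, b • x ∈ A := by
    rintro x ⟨v, rfl⟩
    refine ⟨b • v, ?_⟩
    have hcomm : b * b ^ p ^ (n - 1) = b ^ p ^ (n - 1) * b := (Commute.refl b).pow_right _
    show (b ^ p ^ (n - 1)) • (b • v) - b • v = b • ((b ^ p ^ (n - 1)) • v - v)
    rw [smul_sub, smul_smul, ← hcomm, mul_smul]
  let T := stabA (P := P) A
  have hbT : b ∈ T := hbA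
  have hzT : z ∈ T := hzA
  have hT : IsPGroup p T := hP.to_subgroup T
  let X := {y : A // y ≠ 0}
  letI : MulAction T X :=
    { smul := fun t y => ⟨⟨(t : P) • (y.1 : F), t.2 _ y.1.2⟩, by
        intro h
        have h1 : (t : P) • (y.1 : F) = 0 := congrArg Subtype.val h
        have h2 : (y.1 : F) = 0 := (smul_eq_zero_iff_eq (t : P)).mp h1
        exact y.2 (Subtype.ext h2)⟩
      one_smul := fun y => by
        apply Subtype.ext
        apply Subtype.ext
        show ((1 : T) : P) • (y.1 : F) = y.1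
        simp
      mul_smul := fun s t y => by
        apply Subtype.ext
        apply Subtype.ext
        show ((s * t : T) : P) • (y.1 : F) = (s : P) • ((t : P) • (y.1 : F))
        simp [mul_smul] }
  have hsmul : ∀ (t : T) (y : X), ((t • y).1 : F) = (t : P) • (y.1 : F) := fun _ _ => rfl
  have hcardX : Nat.card X = q ^ (2 * m) - 1 := by
    letI : Fintype A := Fintype.ofFinite _
    have : Nat.card X = Nat.card A - 1 := by
      rw [Nat.card_eq_fintype_card, Nat.card_eq_fintype_card]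
      exact Set.card_ne_eq (0 : A)
    rw [this, hA]
  have hnd : ¬ p ^ (n + 1) ∣ Nat.card X := by
    rw [hcardX]
    intro hd
    have hq1 : 1 ≤ q ^ m := Nat.one_le_pow _ _ hq.out.pos
    have e1 : q ^ (2 * m) - 1 = p ^ n * (p ^ n - 2) := by
      rw [hD, two_mul, pow_add]
      obtain ⟨t, ht⟩ : ∃ t, q ^ m = t + 1 := ⟨q ^ m - 1, by omega⟩
      rw [ht]
      have e2 : t + 1 + 1 - 2 = t := by omega
      rw [e2]
      have e3 : (t + 1) * (t + 1) = (t + 1 + 1) * t + 1 := by ring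
      rw [e3]
      omega
    rw [e1, pow_succ] at hd
    have h2 := Nat.dvd_of_mul_dvd_mul_left hN hd
    have hn2 : 2 ≤ p ^ n := by
      have := Nat.le_self_pow (by omega : n ≠ 0) p
      have := hp.out.two_le
      omega
    have h3 : p ∣ p ^ n := dvd_pow_self p (by omega)
    have h4 : p ∣ 2 := by
      have h5 : p ^ n = (p ^ n - 2) + 2 := by omega
      rw [h5] at h3
      exact (Nat.dvd_add_right h2).mp h3
    have h6 := (Nat.prime_dvd_prime_iff_eq hp.out Nat.prime_two).mp h4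
    exact hp2 h6
  obtain ⟨x₀, hx₀⟩ := exists_orbit_not_dvd (T := T) _ hnd
  -- the orbit has at most `p ^ n` elements
  obtain ⟨k, hk⟩ := hT.card_orbit x₀
  have hkn : k ≤ n := by
    by_contra hcon
    apply hx₀
    rw [hk]
    exact pow_dvd_pow p (by omega)
  have hle : Nat.card (MulAction.orbit T x₀) ≤ p ^ n := by
    rw [hk]
    exact Nat.pow_le_pow_right hp.out.pos hkn
  have hx₀0 : (x₀.1 : F) ≠ 0 := fun h0 => x₀.2 (Subtype.ext h0)
  -- powers of `b`
  let bT : T := ⟨b, hbT⟩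
  let g : Fin (p ^ n) → MulAction.orbit T x₀ := fun i => ⟨bT ^ (i : ℕ) • x₀, MulAction.mem_orbit x₀ _⟩
  have hbpow : ∀ k : ℕ, (((bT ^ k • x₀).1 : F)) = b ^ k • (x₀.1 : F) := by
    intro k
    rw [hsmul]
    rfl
  have hginj : Function.Injective g := by
    have key : ∀ i j : ℕ, i < j → j < p ^ n → b ^ i • (x₀.1 : F) ≠ b ^ j • (x₀.1 : F) := by
      intro i j hij hj h
      obtain ⟨d, rfl⟩ : ∃ d, j = i + d := ⟨j - i, by omega⟩
      have h1 : b ^ (i + d) • (x₀.1 : F) = b ^ i • (b ^ d • (x₀.1 : F)) := by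
        rw [pow_add, mul_smul]
      rw [h1] at h
      have h2 : b ^ d • (x₀.1 : F) = x₀.1 := (smul_left_cancel_iff (b ^ i)).mp h.symm
      exact pow_smul_ne hcop hb hn x₀.1.2 hx₀0 (by omega) (by omega) h2
    intro i j hij
    have h1 : ((bT ^ (i : ℕ) • x₀).1 : F) = ((bT ^ (j : ℕ) • x₀).1 : F) := by
      have := congrArg (fun w : MulAction.orbit T x₀ => ((w.1.1 : A) : F)) hij
      exact this
    rw [hbpow, hbpow] at h1
    apply Fin.ext
    rcases lt_trichotomy (i : ℕ) j with h | h | h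
    · exact absurd h1 (key _ _ h j.2)
    · exact h
    · exact absurd h1.symm (key _ _ h i.2)
  have hgbij : Function.Bijective g := by
    rw [Nat.bijective_iff_injective_and_card]
    refine ⟨hginj, ?_⟩
    have h1 : Nat.card (Fin (p ^ n)) = p ^ n := by simp
    have h2 := Nat.card_le_card_of_injective g hginj
    rw [h1] at h2 ⊢
    omega
  -- `z x₀` is a `b`-translate of `x₀`
  let zT : T := ⟨z, hzT⟩
  obtain ⟨i, hi⟩ := hgbij.2 ⟨zT • x₀, MulAction.mem_orbit x₀ _⟩
  have hzx₀ : z • (x₀.1 : F) = b ^ (i : ℕ) • (x₀.1 : F) := by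
    have h1 := congrArg (fun w : MulAction.orbit T x₀ => ((w.1.1 : A) : F)) hi
    have h2 : ((bT ^ (i : ℕ) • x₀).1 : F) = ((zT • x₀).1 : F) := h1
    rw [hbpow, hsmul] at h2
    exact h2.symm
  refine ⟨i, ?_⟩
  -- the fixed subgroup
  have hbpowA : ∀ k : ℕ, ∀ x ∈ A, b ^ k • x ∈ A := by
    intro k
    induction k with
    | zero => simp
    | succ k ih =>
      intro x hx
      rw [pow_succ', mul_smul]
      exact hbA _ (ih x hx)
  let A₀ : AddSubgroup F :=
    { carrier := {x | x ∈ A ∧ z • x = b ^ (i : ℕ) • x}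
      add_mem' := by
        rintro x y ⟨hx, hx'⟩ ⟨hy, hy'⟩
        exact ⟨add_mem hx hy, by rw [smul_add, smul_add, hx', hy']⟩
      zero_mem' := ⟨zero_mem _, by simp⟩
      neg_mem' := by
        rintro x ⟨hx, hx'⟩
        exact ⟨neg_mem hx, by rw [smul_neg, smul_neg, hx']⟩ }
  have hA₀le : A₀ ≤ A := fun x hx => hx.1
  have hA₀inv : ∀ x ∈ A₀, b • x ∈ A₀ := by
    rintro x ⟨hx, hx'⟩
    refine ⟨hbA x hx, ?_⟩
    rw [hzb x hx, hx', smul_smul, smul_smul, ← pow_succ, ← pow_succ']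
  have hx₀A₀ : (x₀.1 : F) ∈ A₀ := ⟨x₀.1.2, hzx₀⟩
  rcases eq_bot_or_eq hcop hb hn hm hD hA A₀ hA₀le hA₀inv with h | h
  · exfalso
    rw [h] at hx₀A₀
    exact hx₀0 (AddSubgroup.mem_bot.mp hx₀A₀)
  · intro x hx
    have : x ∈ A₀ := by rw [h]; exact hx
    exact this.2


/-- The last power is a power of `z` on `[F, u]`. -/
theorem exists_power_eq_last [Finite P] (hp2 : p ≠ 2) (hP : IsPGroup p P) (hcop : (Nat.card F).Coprime p) {b : P}
    {n m : ℕ} (hb : b ^ p ^ n = 1) (hn : 1 ≤ n) (hm : 1 ≤ m) (hD : p ^ n = q ^ m + 1)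
    (hA : Nat.card (cm F (b ^ p ^ (n - 1))) = q ^ (2 * m)) {z : P}
    (hzA : ∀ x ∈ cm F (b ^ p ^ (n - 1)), z • x ∈ cm F (b ^ p ^ (n - 1)))
    (hzb : ∀ x ∈ cm F (b ^ p ^ (n - 1)), z • (b • x) = b • (z • x))
    (hzp : ∀ x ∈ cm F (b ^ p ^ (n - 1)), z ^ p • x = x)
    (hzfix : ∀ x ∈ cm F (b ^ p ^ (n - 1)), z • x = x → x = 0) :
    ∃ k : ℕ, k.Coprime p ∧ ∀ x ∈ cm F (b ^ p ^ (n - 1)), z ^ k • x = b ^ p ^ (n - 1) • x := by
  classical
  obtain ⟨i, hi⟩ := exists_pow_smul_eq hp2 hP hcop hb hn hm hD hA hzA hzb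
  set u := b ^ p ^ (n - 1) with hu
  set A := cm F u with hAdef
  have hN : 0 < p ^ n := pow_pos hp.out.pos n
  have hbA : ∀ x ∈ A, b • x ∈ A := by
    rintro x ⟨v, rfl⟩
    refine ⟨b • v, ?_⟩
    have hcomm : b * u = u * b := (Commute.refl b).pow_right _
    show u • (b • v) - b • v = b • (u • v - v)
    rw [smul_sub, smul_smul, ← hcomm, mul_smul]
  have hbpowA : ∀ k : ℕ, ∀ x ∈ A, b ^ k • x ∈ A := by
    intro k
    induction k with
    | zero => simp
    | succ k ih =>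
      intro x hx
      rw [pow_succ', mul_smul]
      exact hbA _ (ih x hx)
  -- a nonzero element
  have hne : ∃ x₁ ∈ A, x₁ ≠ 0 := by
    by_contra hcon
    push Not at hcon
    have h1 : A = ⊥ := by
      rw [eq_bot_iff]
      intro x hx
      exact AddSubgroup.mem_bot.mpr (hcon x hx)
    have h2 : Nat.card A = 1 := by rw [h1]; simp
    rw [hA] at h2
    have h3 : 1 < q ^ (2 * m) := Nat.one_lt_pow (by omega) hq.out.one_lt
    omega
  obtain ⟨x₁, hx₁, hx₁0⟩ := hne
  have hzpow : ∀ k : ℕ, ∀ x ∈ A, z ^ k • x = b ^ (i * k) • x := by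
    intro k
    induction k with
    | zero => simp
    | succ k ih =>
      intro x hx
      rw [pow_succ', mul_smul, ih x hx, hi _ (hbpowA _ x hx), smul_smul, ← pow_add]
      congr 2
      ring
  have hbp : b ^ (i * p) • x₁ = x₁ := by
    rw [← hzpow p x₁ hx₁]
    exact hzp x₁ hx₁
  have hd : p ^ n ∣ i * p := by
    by_contra hcon
    have h0 : i * p % p ^ n ≠ 0 := fun h => hcon (Nat.dvd_of_mod_eq_zero h)
    have h1 : b ^ (i * p % p ^ n) • x₁ = x₁ := by
      have e : b ^ (i * p) = b ^ (i * p % p ^ n) := by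
        conv_lhs => rw [← Nat.div_add_mod (i * p) (p ^ n), pow_add, pow_mul, hb, one_pow, one_mul]
      rw [← e]
      exact hbp
    exact pow_smul_ne hcop hb hn hx₁ hx₁0 (Nat.pos_of_ne_zero h0) (Nat.mod_lt _ hN) h1
  have hd2 : p ^ (n - 1) ∣ i := by
    have e : p ^ n = p ^ (n - 1) * p := by
      rw [← pow_succ]
      congr 1
      omega
    rw [e] at hd
    exact Nat.dvd_of_mul_dvd_mul_right hp.out.pos hd
  obtain ⟨j, rfl⟩ := hd2
  have hup : u ^ p = 1 := last_pow_p hb hn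
  have hzu : ∀ k : ℕ, ∀ x ∈ A, z ^ k • x = u ^ (j * k) • x := by
    intro k x hx
    rw [hzpow k x hx, hu, ← pow_mul]
    congr 2
    ring
  have hjc : j.Coprime p := by
    rw [Nat.coprime_comm, Nat.Prime.coprime_iff_not_dvd hp.out]
    rintro ⟨t, rfl⟩
    apply hx₁0
    apply hzfix x₁ hx₁
    have h1 := hzu 1 x₁ hx₁
    rw [pow_one, mul_one, pow_mul, hup, one_pow, one_smul] at h1
    exact h1
  have hp1 : 1 < p := hp.out.one_lt
  obtain ⟨k, -, hk⟩ := Nat.exists_mul_mod_eq_one_of_coprime hjc hp1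
  refine ⟨k, ?_, ?_⟩
  · rw [Nat.coprime_comm, Nat.Prime.coprime_iff_not_dvd hp.out]
    intro hpk
    have h1 : p ∣ j * k := Dvd.dvd.mul_left hpk j
    rw [Nat.dvd_iff_mod_eq_zero, hk] at h1
    omega
  · intro x hx
    rw [hzu k x hx]
    have e : u ^ (j * k) = u := by
      conv_lhs => rw [← Nat.div_add_mod (j * k) p, hk, pow_add, pow_mul, hup, one_pow, one_mul, pow_one]
    rw [e]

section core

variable {F : Type*} [AddCommGroup F] {P : Type*} [Group P] [DistribMulAction P F]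

/-- The group element form of `tau_trivial`. -/
theorem comm_of_quadratic (u g z : P) (hzc : ∀ (x : P) (v : F), z • (x • v) = x • (z • v))
    (hfix1 : ∀ v : F, z • v = v → v = 0) (hfix2 : ∀ v : F, z • (z • v) = v → v = 0)
    (hq : ∀ v : F, z • (u • v - v) = u • (u • v - v))
    (hc1 : ∀ v : F, ⁅u, g⁆ • (u • v) = u • (⁅u, g⁆ • v)) (hc2 : ∀ v : F, ⁅u, g⁆ • (g • v) = g • (⁅u, g⁆ • v)) :
    ∀ v : F, ⁅u, g⁆ • v = v := by
  let sm := DistribMulAction.toAddMonoidEnd P F
  have hsm : ∀ (h : P) (v : F), sm h v = h • v := fun _ _ => rfl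
  have hcomm : ∀ (a b : P), (∀ v : F, a • (b • v) = b • (a • v)) → sm a * sm b = sm b * sm a := by
    intro a b h
    ext v
    exact h v
  refine tau_trivial (sm u) (sm ⁅u, g⁆) (sm z) (sm g) (sm g⁻¹) ?_ ?_ (hcomm _ _ hc1) (hcomm _ _ hc2)
    (hcomm _ _ (hzc u)) (hcomm _ _ (hzc g)) (hcomm _ _ (hzc _)) ?_ ?_ ?_ hfix1 hfix2
  · rw [← map_mul, mul_inv_cancel, map_one]
  · rw [← map_mul, inv_mul_cancel, map_one]
  · have e : u * g = ⁅u, g⁆ * g * u := by
      rw [commutatorElement_def]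
      group
    rw [← map_mul, e, map_mul, map_mul]
  · ext v
    show u • (u • v - z • v) - (u • v - z • v) = 0
    have h1 := hq v
    rw [smul_sub, smul_sub] at h1
    rw [smul_sub, ← hzc u v]
    have e : u • u • v - z • u • v - (u • v - z • v) = (u • u • v - u • v) - (z • u • v - z • v) := by abel
    rw [e, h1, sub_self]
  · intro v hv
    exact (smul_eq_zero_iff_eq z).mp hv

theorem act_comm_inv {a y : P} {v : F} (h : ∀ w : F, a • (y • w) = y • (a • w)) :
    a⁻¹ • (y • v) = y • (a⁻¹ • v) := by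
  have h1 := h (a⁻¹ • v)
  rw [smul_inv_smul] at h1
  rw [← h1, inv_smul_smul]

/-- The core case: `z` central on `F`, without fixed points. -/
theorem core_fpf {p : ℕ} [hp : Fact p.Prime] [Finite P] (hp2 : p ≠ 2) (hP : IsPGroup p P) (u u' z : P)
    (hzc : ∀ (x : P) (v : F), z • (x • v) = x • (z • v)) (hzp : ∀ v : F, z ^ p • v = v)
    (hzf : ∀ v : F, z • v = v → v = 0) {k k' : ℕ} (hk : k.Coprime p) (hk' : k'.Coprime p)
    (hu : ∀ v : F, z ^ k • (u • v - v) = u • (u • v - v))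
    (hu' : ∀ v : F, z ^ k' • (u' • v - v) = u' • (u' • v - v)) : ∀ v : F, ⁅u, u'⁆ • v = v := by
  classical
  have hzpowc : ∀ (t : ℕ) (x : P) (v : F), z ^ t • (x • v) = x • (z ^ t • v) := by
    intro t
    induction t with
    | zero => simp
    | succ t ih =>
      intro x v
      rw [pow_succ', mul_smul, ih, hzc, mul_smul]
  -- reduction of the exponents
  have hz1 : ∀ (s : ℕ) (w : F), (z ^ p) ^ s • w = w := by
    intro s
    induction s with
    | zero => simp
    | succ s ih =>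
      intro w
      rw [pow_succ, mul_smul, hzp, ih]
  have hzmod : ∀ (t : ℕ) (v : F), z ^ t • v = z ^ (t % p) • v := by
    intro t v
    conv_lhs => rw [← Nat.div_add_mod t p, pow_add, pow_mul, mul_smul, hz1]
  have hfixc : ∀ t : ℕ, t.Coprime p → ∀ v : F, z ^ t • v = v → v = 0 := by
    intro t ht v hv
    apply hzf
    obtain ⟨l, -, hl⟩ := Nat.exists_mul_mod_eq_one_of_coprime ht hp.out.one_lt
    have h1 : ∀ s : ℕ, (z ^ t) ^ s • v = v := by
      intro s
      induction s with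
      | zero => simp
      | succ s ih => rw [pow_succ, mul_smul, hv, ih]
    have h2 := h1 l
    rw [← pow_mul, hzmod, hl, pow_one] at h2
    exact h2
  have hfixk : ∀ v : F, z ^ k • v = v → v = 0 := hfixc k hk
  have hfixk2 : ∀ v : F, z ^ k • (z ^ k • v) = v → v = 0 := by
    intro v hv
    apply hfixc (k + k)
    · rw [← two_mul]
      apply Nat.Coprime.mul_left _ hk
      rw [Nat.coprime_comm, Nat.Prime.coprime_iff_not_dvd hp.out]
      intro h
      exact hp2 ((Nat.prime_dvd_prime_iff_eq hp.out Nat.prime_two).mp h)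
    · rw [pow_add, mul_smul]
      exact hv
  have hfixk' : ∀ v : F, z ^ k' • v = v → v = 0 := hfixc k' hk'
  have hfixk2' : ∀ v : F, z ^ k' • (z ^ k' • v) = v → v = 0 := by
    intro v hv
    apply hfixc (k' + k')
    · rw [← two_mul]
      apply Nat.Coprime.mul_left _ hk'
      rw [Nat.coprime_comm, Nat.Prime.coprime_iff_not_dvd hp.out]
      intro h
      exact hp2 ((Nat.prime_dvd_prime_iff_eq hp.out Nat.prime_two).mp h)
    · rw [pow_add, mul_smul]
      exact hv
  -- the two-generator subgroup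
  let Γ := Subgroup.closure ({u, u'} : Set P)
  let a : Γ := ⟨u, Subgroup.subset_closure (by simp)⟩
  let b : Γ := ⟨u', Subgroup.subset_closure (by simp)⟩
  let φ : Γ →* Equiv.Perm F := MulAction.toPermHom Γ F
  let K : Subgroup Γ := φ.ker
  have hK : ∀ g : Γ, g ∈ K ↔ ∀ v : F, (g : P) • v = v := by
    intro g
    rw [MonoidHom.mem_ker, Equiv.ext_iff]
    rfl
  have hgen : Subgroup.closure ({a, b} : Set Γ) = ⊤ := by
    have h1 := Subgroup.closure_closure_coe_preimage (k := ({u, u'} : Set P))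
    have h2 : ((↑) ⁻¹' ({u, u'} : Set P) : Set Γ) = {a, b} := by
      ext g
      simp only [Set.mem_preimage, Set.mem_insert_iff, Set.mem_singleton_iff, a, b, Subtype.ext_iff]
    rw [h2] at h1
    exact h1
  have hΓ : IsPGroup p Γ := hP.to_subgroup Γ
  have hcoe : ∀ (g h : Γ), ((⁅g, h⁆ : Γ) : P) = ⁅(g : P), (h : P)⁆ := fun _ _ => rfl
  have key := commutator_mem_of_step hΓ K a b hgen ?_
  · intro v
    exact (hK _).mp key v
  intro g hg
  have hgK : ∀ x y : Γ, ∀ v : F, ⁅⁅(g : P), (x : P)⁆, (y : P)⁆ • v = v := by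
    intro x y
    exact (hK _).mp (hg x y)
  -- `⁅g, x⁆` commutes with everything in `Γ`, on `F`
  have hcent : ∀ (x y : Γ) (v : F), ⁅(g : P), (x : P)⁆ • ((y : P) • v) = (y : P) • (⁅(g : P), (x : P)⁆ • v) := by
    intro x y v
    set A := ⁅(g : P), (x : P)⁆ with hA
    have e : A * (y : P) = ⁅A, (y : P)⁆ * ((y : P) * A) := by
      rw [commutatorElement_def]
      group
    rw [← mul_smul, e, mul_smul, hgK x y, mul_smul]
  have hcent' : ∀ (x y : Γ) (v : F), ⁅(x : P), (g : P)⁆ • ((y : P) • v) = (y : P) • (⁅(x : P), (g : P)⁆ • v) := by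
    intro x y v
    rw [← commutatorElement_inv]
    exact act_comm_inv (fun w => hcent x y w)
  constructor
  · rw [hK]
    exact comm_of_quadratic u (g : P) (z ^ k) (hzpowc k) hfixk hfixk2 hu (fun v => hcent' a a v) (fun v => hcent' a g v)
  · rw [hK]
    exact comm_of_quadratic u' (g : P) (z ^ k') (hzpowc k') hfixk' hfixk2' hu' (fun v => hcent' b b v)
      (fun v => hcent' b g v)

end core

/-- A central element of order `p` modulo a normal subgroup. -/
theorem exists_central_mod {P : Type*} [Group P] [Finite P] {p : ℕ} [hp : Fact p.Prime] (hP : IsPGroup p P)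
    (K : Subgroup P) [K.Normal] (hK : K ≠ ⊤) : ∃ z : P, z ∉ K ∧ z ^ p ∈ K ∧ ∀ t, ⁅z, t⁆ ∈ K := by
  classical
  have hQ : IsPGroup p (P ⧸ K) := hP.of_surjective (QuotientGroup.mk' K) (QuotientGroup.mk'_surjective K)
  haveI : Nontrivial (P ⧸ K) := QuotientGroup.nontrivial_iff.mpr hK
  haveI := hQ.center_nontrivial
  have hZ : IsPGroup p (Subgroup.center (P ⧸ K)) := hQ.to_subgroup _
  obtain ⟨k, hk0, hk⟩ := hZ.nontrivial_iff_card.mp inferInstance
  have hd : p ∣ Nat.card (Subgroup.center (P ⧸ K)) := by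
    rw [hk]
    exact dvd_pow_self p hk0.ne'
  obtain ⟨w, hw⟩ := exists_prime_orderOf_dvd_card' p hd
  obtain ⟨z, hz⟩ := QuotientGroup.mk_surjective (w : P ⧸ K)
  have hwp : w ^ p = 1 := by
    rw [← hw]
    exact pow_orderOf_eq_one w
  have hw1 : w ≠ 1 := by
    intro h
    rw [h, orderOf_one] at hw
    exact hp.out.one_lt.ne hw
  refine ⟨z, ?_, ?_, ?_⟩
  · intro h
    apply hw1
    apply Subtype.ext
    rw [← hz]
    exact (QuotientGroup.eq_one_iff _).mpr h
  · rw [← QuotientGroup.eq_one_iff, QuotientGroup.mk_pow, hz]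
    have := congrArg (Subtype.val) hwp
    exact this
  · intro t
    rw [← QuotientGroup.eq_one_iff, commutatorElement_def]
    simp only [QuotientGroup.mk_mul, QuotientGroup.mk_inv]
    rw [hz]
    have h2 := Subgroup.mem_center_iff.mp w.2 (t : P ⧸ K)
    rw [← h2]
    group

theorem exists_inv_nsmul (hcop : (Nat.card F).Coprime p) : ∃ M : ℕ, ∀ a : F, (p * M) • a = a := by
  obtain ⟨M, -, hM⟩ := Nat.exists_mul_mod_eq_of_coprime 1 hcop.symm (Nat.card_pos (α := F)).ne'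
  refine ⟨M, fun a => ?_⟩
  rw [← mod_natCard_nsmul, hM, mod_natCard_nsmul, one_smul]

/-- The map `z - 1`. -/
def subHom (F : Type*) [AddCommGroup F] {P : Type*} [Group P] [DistribMulAction P F] (z : P) : F →+ F :=
  AddMonoidHom.mk' (fun v => z • v - v) (by
    intro a b
    rw [smul_add]
    abel)

theorem subHom_apply (z : P) (v : F) : subHom F z v = z • v - v := rfl

/-- The decomposition of a module of order prime to `p`, under an element of order `p`. -/
theorem exists_decomp (hcop : (Nat.card F).Coprime p) (z : P) (S : AddSubgroup F) (hS : ∀ x ∈ S, z • x ∈ S)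
    (hz : ∀ x ∈ S, z ^ p • x = x) {v : F} (hv : v ∈ S) :
    ∃ x ∈ S, z • x = x ∧ ∃ y, (∃ w ∈ S, z • w - w = y) ∧ v = x + y := by
  classical
  obtain ⟨M, hM⟩ := exists_inv_nsmul (F := F) (p := p) hcop
  have hzpow : ∀ i : ℕ, z ^ i • v ∈ S := by
    intro i
    induction i with
    | zero => simpa using hv
    | succ i ih =>
      rw [pow_succ', mul_smul]
      exact hS _ ih
  let T : AddSubgroup F := AddSubgroup.map (subHom F z) S
  have hTmem : ∀ y : F, y ∈ T ↔ ∃ w ∈ S, z • w - w = y := fun y => Iff.rfl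
  have hsub : ∀ i : ℕ, v - z ^ i • v ∈ T := by
    intro i
    induction i with
    | zero => simp
    | succ i ih =>
      have e : v - z ^ (i + 1) • v = (v - z ^ i • v) + -(z • (z ^ i • v) - z ^ i • v) := by
        rw [pow_succ', mul_smul]
        abel
      rw [e]
      refine add_mem ih (neg_mem ?_)
      exact (hTmem _).mpr ⟨_, hzpow i, rfl⟩
  let N : F := ∑ i ∈ Finset.range p, z ^ i • v
  have hNS : N ∈ S := sum_mem fun i _ => hzpow i
  have hNfix : z • N = N := by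
    simp only [N, Finset.smul_sum, smul_smul, ← pow_succ']
    have h1 := Finset.sum_range_succ (fun i => z ^ i • v) p
    have h2 := Finset.sum_range_succ' (fun i => z ^ i • v) p
    rw [hz v hv] at h1
    simp only [pow_zero, one_smul] at h2
    rw [h2] at h1
    exact add_right_cancel h1
  have hsum : (∑ i ∈ Finset.range p, (v - z ^ i • v)) = p • v - N := by
    rw [Finset.sum_sub_distrib]
    simp [N]
  refine ⟨M • N, nsmul_mem hNS M, ?_, M • (∑ i ∈ Finset.range p, (v - z ^ i • v)), ?_, ?_⟩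
  · rw [smul_comm, hNfix]
  · exact (hTmem _).mp (nsmul_mem (sum_mem fun i _ => hsub i) M)
  · rw [hsum, smul_sub, ← mul_nsmul, hM]
    abel

/-- Inside a section on which `z` is central and without fixed points. -/
theorem exists_k_of_section [Finite P] (hp2 : p ≠ 2) (hP : IsPGroup p P) (hcop : (Nat.card F).Coprime p) {b : P}
    {n m : ℕ} (hb : b ^ p ^ n = 1) (hn : 1 ≤ n) (hm : 1 ≤ m) (hD : p ^ n = q ^ m + 1)
    (hA : Nat.card (cm F (b ^ p ^ (n - 1))) = q ^ (2 * m)) (F₁ : AddSubgroup F) (hF₁ : ∀ t : P, ∀ x ∈ F₁, t • x ∈ F₁)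
    {z : P} (hzc : ∀ t : P, ∀ x ∈ F₁, z • (t • x) = t • (z • x)) (hzp : ∀ x ∈ F₁, z ^ p • x = x)
    (hzf : ∀ x ∈ F₁, z • x = x → x = 0) (hne : ∃ x ∈ F₁, b ^ p ^ (n - 1) • x ≠ x) :
    ∃ k : ℕ, k.Coprime p ∧ ∀ v ∈ F₁, z ^ k • (b ^ p ^ (n - 1) • v - v) = b ^ p ^ (n - 1) • (b ^ p ^ (n - 1) • v - v) := by
  classical
  set u := b ^ p ^ (n - 1) with hu
  let A₁ : AddSubgroup F := AddSubgroup.map (subHom F u) F₁
  have hA₁mem : ∀ y : F, y ∈ A₁ ↔ ∃ w ∈ F₁, u • w - w = y := fun y => Iff.rfl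
  have hA₁le : A₁ ≤ cm F u := by
    intro y hy
    obtain ⟨w, -, hw⟩ := (hA₁mem y).mp hy
    exact mem_cm.mpr ⟨w, hw⟩
  have hcommb : b * u = u * b := (Commute.refl b).pow_right _
  have hA₁inv : ∀ x ∈ A₁, b • x ∈ A₁ := by
    intro x hx
    obtain ⟨w, hw, rfl⟩ := (hA₁mem x).mp hx
    refine (hA₁mem _).mpr ⟨b • w, hF₁ b w hw, ?_⟩
    rw [smul_sub, smul_smul, ← hcommb, mul_smul]
  have hA₁ : A₁ = cm F u := by
    rcases eq_bot_or_eq hcop hb hn hm hD hA A₁ hA₁le hA₁inv with h | h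
    · exfalso
      obtain ⟨x, hx, hx1⟩ := hne
      apply hx1
      have h1 : u • x - x ∈ A₁ := (hA₁mem _).mpr ⟨x, hx, rfl⟩
      rw [h] at h1
      exact sub_eq_zero.mp (AddSubgroup.mem_bot.mp h1)
    · exact h
  have hle : ∀ x ∈ cm F u, x ∈ F₁ := by
    intro x hx
    rw [← hA₁] at hx
    obtain ⟨w, hw, rfl⟩ := (hA₁mem x).mp hx
    exact sub_mem (hF₁ u w hw) hw
  obtain ⟨k, hk, hk2⟩ := exists_power_eq_last hp2 hP hcop hb hn hm hD hA (z := z) (by
      intro x hx
      rw [← hA₁] at hx ⊢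
      obtain ⟨w, hw, rfl⟩ := (hA₁mem x).mp hx
      refine (hA₁mem _).mpr ⟨z • w, hF₁ z w hw, ?_⟩
      rw [smul_sub, hzc u w hw]) (by
      intro x hx
      exact hzc b x (hle x hx)) (by
      intro x hx
      exact hzp x (hle x hx)) (by
      intro x hx h
      exact hzf x (hle x hx) h)
  refine ⟨k, hk, fun v hv => ?_⟩
  apply hk2
  rw [← hA₁]
  exact (hA₁mem _).mpr ⟨v, hv, rfl⟩

/-- The last powers commute on `F`. -/
theorem last_comm [Finite P] (hp2 : p ≠ 2) (hP : IsPGroup p P) (hcop : (Nat.card F).Coprime p) (b b' : P)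
    {n n' m m' : ℕ} (hb : b ^ p ^ n = 1) (hb' : b' ^ p ^ n' = 1) (hn : 1 ≤ n) (hn' : 1 ≤ n') (hm : 1 ≤ m)
    (hm' : 1 ≤ m') (hD : p ^ n = q ^ m + 1) (hD' : p ^ n' = q ^ m' + 1)
    (hA : Nat.card (cm F (b ^ p ^ (n - 1))) = q ^ (2 * m))
    (hA' : Nat.card (cm F (b' ^ p ^ (n' - 1))) = q ^ (2 * m')) :
    ∀ v : F, ⁅b ^ p ^ (n - 1), b' ^ p ^ (n' - 1)⁆ • v = v := by
  classical
  by_contra hcon
  push Not at hcon
  set u := b ^ p ^ (n - 1) with hu
  set u' := b' ^ p ^ (n' - 1) with hu'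
  set c := ⁅u, u'⁆ with hc
  let 𝓕 : Set (AddSubgroup F) := {F₀ | (∀ t : P, ∀ x ∈ F₀, t • x ∈ F₀) ∧ ∃ x ∈ F₀, c • x ≠ x}
  have h𝓕 : 𝓕.Nonempty := by
    obtain ⟨v, hv⟩ := hcon
    exact ⟨⊤, fun _ _ _ => trivial, v, trivial, hv⟩
  obtain ⟨F₁, hF₁min⟩ := Set.Finite.exists_minimal (Set.toFinite 𝓕) h𝓕
  obtain ⟨hF₁, x₁, hx₁, hx₁c⟩ := hF₁min.1
  have hmin : ∀ F₀ ∈ 𝓕, F₀ ≤ F₁ → F₁ ≤ F₀ := fun F₀ h h2 => hF₁min.2 h h2
  letI act : DistribMulAction P F₁ :=
    { smul := fun t x => ⟨t • x.1, hF₁ t x.1 x.2⟩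
      one_smul := fun x => Subtype.ext (one_smul P x.1)
      mul_smul := fun s t x => Subtype.ext (mul_smul s t x.1)
      smul_zero := fun t => Subtype.ext (smul_zero t)
      smul_add := fun t x y => Subtype.ext (smul_add t x.1 y.1) }
  have hactcoe : ∀ (t : P) (x : F₁), ((t • x : F₁) : F) = t • (x : F) := fun _ _ => rfl
  let K₁ : Subgroup P := (MulAction.toPermHom P F₁).ker
  have hK₁ : ∀ t : P, t ∈ K₁ ↔ ∀ x ∈ F₁, t • x = x := by
    intro t
    rw [MonoidHom.mem_ker, Equiv.ext_iff]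
    constructor
    · intro h x hx
      exact congrArg Subtype.val (h ⟨x, hx⟩)
    · intro h x
      exact Subtype.ext (h x.1 x.2)
  have hK₁ne : K₁ ≠ ⊤ := by
    intro h
    have : c ∈ K₁ := by rw [h]; trivial
    exact hx₁c ((hK₁ c).mp this x₁ hx₁)
  obtain ⟨z, hz1, hzp, hzt⟩ := exists_central_mod hP K₁ hK₁ne
  have hzc : ∀ t : P, ∀ x ∈ F₁, z • (t • x) = t • (z • x) := by
    intro t x hx
    have e : z * t = ⁅z, t⁆ * (t * z) := by
      rw [commutatorElement_def]
      group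
    rw [← mul_smul, e, mul_smul, mul_smul]
    exact (hK₁ _).mp (hzt t) _ (hF₁ _ _ (hF₁ _ _ hx))
  have hzp' : ∀ x ∈ F₁, z ^ p • x = x := (hK₁ _).mp hzp
  -- fixed points and commutators
  let C : AddSubgroup F :=
    { carrier := {v | v ∈ F₁ ∧ z • v = v}
      add_mem' := by
        rintro x y ⟨hx, hx'⟩ ⟨hy, hy'⟩
        exact ⟨add_mem hx hy, by rw [smul_add, hx', hy']⟩
      zero_mem' := ⟨zero_mem _, by simp⟩
      neg_mem' := by
        rintro x ⟨hx, hx'⟩
        exact ⟨neg_mem hx, by rw [smul_neg, hx']⟩ }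
  let D : AddSubgroup F := AddSubgroup.map (subHom F z) F₁
  have hDmem : ∀ y : F, y ∈ D ↔ ∃ w ∈ F₁, z • w - w = y := fun y => Iff.rfl
  have hCinv : ∀ t : P, ∀ x ∈ C, t • x ∈ C := by
    rintro t x ⟨hx, hx'⟩
    exact ⟨hF₁ t x hx, by rw [hzc t x hx, hx']⟩
  have hDinv : ∀ t : P, ∀ x ∈ D, t • x ∈ D := by
    intro t x hx
    obtain ⟨w, hw, rfl⟩ := (hDmem x).mp hx
    refine (hDmem _).mpr ⟨t • w, hF₁ t w hw, ?_⟩
    rw [smul_sub, hzc t w hw]
  have hCle : C ≤ F₁ := fun x hx => hx.1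
  have hDle : D ≤ F₁ := by
    intro x hx
    obtain ⟨w, hw, rfl⟩ := (hDmem x).mp hx
    exact sub_mem (hF₁ z w hw) hw
  obtain ⟨x₂, hx₂, hx₂f, y₂, ⟨w₂, hw₂, hw₂e⟩, hdec⟩ :=
    exists_decomp hcop z F₁ (fun x hx => hF₁ z x hx) hzp' hx₁
  have hcase : (c • x₂ ≠ x₂) ∨ (c • y₂ ≠ y₂) := by
    by_contra hcon2
    push Not at hcon2
    apply hx₁c
    rw [hdec, smul_add, hcon2.1, hcon2.2]
  have hDtop : F₁ ≤ D := by
    rcases hcase with h | h
    · exfalso
      have h1 : C ∈ 𝓕 := ⟨hCinv, x₂, ⟨hx₂, hx₂f⟩, h⟩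
      have h2 := hmin C h1 hCle
      apply hz1
      rw [hK₁]
      intro x hx
      exact (h2 hx).2
    · have h1 : y₂ ∈ D := (hDmem _).mpr ⟨w₂, hw₂, hw₂e⟩
      exact hmin D ⟨hDinv, y₂, h1, h⟩ hDle
  -- `z` has no fixed points
  have hzf : ∀ x ∈ F₁, z • x = x → x = 0 := by
    let g : F₁ → F₁ := fun w => z • w - w
    have hgcoe : ∀ w : F₁, ((g w : F₁) : F) = z • (w : F) - w := fun _ => rfl
    have hsurj : Function.Surjective g := by
      intro y
      obtain ⟨w, hw, he⟩ := (hDmem _).mp (hDtop y.2)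
      exact ⟨⟨w, hw⟩, Subtype.ext he⟩
    have hinj : Function.Injective g := Finite.injective_iff_surjective.mpr hsurj
    intro x hx hfix
    have h1 : g ⟨x, hx⟩ = g 0 := by
      apply Subtype.ext
      rw [hgcoe, hgcoe]
      simp [hfix]
    have h2 := hinj h1
    exact congrArg Subtype.val h2
  -- `u`, `u'` move `F₁`
  have hne : ∃ x ∈ F₁, u • x ≠ x := by
    by_contra hcon2
    push Not at hcon2
    apply hx₁c
    have hinv : ∀ x ∈ F₁, u⁻¹ • x = x := by
      intro x hx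
      have := hcon2 x hx
      rw [inv_smul_eq_iff, this]
    have e : c • x₁ = u • (u' • (u⁻¹ • (u'⁻¹ • x₁))) := by
      rw [hc, commutatorElement_def, mul_smul, mul_smul, mul_smul]
    rw [e, hinv _ (hF₁ _ _ hx₁), smul_inv_smul, hcon2 _ hx₁]
  have hne' : ∃ x ∈ F₁, u' • x ≠ x := by
    by_contra hcon2
    push Not at hcon2
    apply hx₁c
    have hinv : ∀ x ∈ F₁, u'⁻¹ • x = x := by
      intro x hx
      have := hcon2 x hx
      rw [inv_smul_eq_iff, this]
    have e : c • x₁ = u • (u' • (u⁻¹ • (u'⁻¹ • x₁))) := by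
      rw [hc, commutatorElement_def, mul_smul, mul_smul, mul_smul]
    rw [e, hinv _ hx₁, hcon2 _ (hF₁ _ _ hx₁), smul_inv_smul]
  obtain ⟨k, hk, hk2⟩ := exists_k_of_section hp2 hP hcop hb hn hm hD hA F₁ hF₁ hzc hzp' hzf hne
  obtain ⟨k', hk', hk2'⟩ := exists_k_of_section hp2 hP hcop hb' hn' hm' hD' hA' F₁ hF₁ hzc hzp' hzf hne'
  have hfinal := core_fpf (F := F₁) (P := P) hp2 hP u u' z (fun x v => Subtype.ext (hzc x v.1 v.2))
    (fun v => Subtype.ext (hzp' v.1 v.2))
    (fun v hv => Subtype.ext (hzf v.1 v.2 (congrArg Subtype.val hv))) hk hk'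
    (fun v => Subtype.ext (hk2 v.1 v.2)) (fun v => Subtype.ext (hk2' v.1 v.2))
  exact hx₁c (congrArg Subtype.val (hfinal ⟨x₁, hx₁⟩))

end Cfsg.Agent.Lib.LastPow.Action
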