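import Mathlib
import Cfsg.Agent.Lib.Gross.Type
import Cfsg.Agent.Lib.Coprime.Coset

/-!
# The type of an element with `(ρ(b) - 1) ^ (|b| - 1) = 0` on a Heisenberg section

Let `b` have order `p ^ n`, act on a `q`-group `Q`, `U` a subspace on which `Q / R` is of Heisenberg type and
`(ρ(b) - 1) ^ (p ^ n - 1) = 0`. If `y = b ^ p ^ (n - 1)` moves `Q / R` then `p ^ n = q ^ m + 1` and
`|[Q/R, y]| = q ^ (2 m)`.
-/

set_option autoImplicit false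
set_option linter.unusedSectionVars false
set_option linter.style.haveILetI false

namespace Cfsg.Agent.Lib.LastPow.TypeOdd

open Module Cfsg.Agent.Lib.OddOrder.HHCore Cfsg.Agent.Lib.OddOrder.HHGroup
open Cfsg.Agent.Lib.HallHigman.Core Cfsg.Agent.Lib.HallHigman.Block Cfsg.Agent.Lib.HallHigman.Level
open Cfsg.Agent.Lib.HallHigman.Commutant Cfsg.Agent.Lib.HallHigman.Reduce
open Cfsg.Agent.Lib.HallHigman.MinGroup
open Cfsg.Agent.Lib.Gross.Type Cfsg.Agent.Lib.Ward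

variable {G : Type*} [Group G] [Finite G] {K : Type*} [Field K]
variable {V : Type*} [AddCommGroup V] [Module K V]

section pairing

variable {ρ : G →* End K V} {U : Submodule K V}

theorem pw_mul_right {t₁ t₂ : K} {u g₁ g₂ : G} (h₁ : PW ρ U t₁ u g₁) (h₂ : PW ρ U t₂ u g₂)
    (hg₂ : ∀ v ∈ U, ρ g₂ v ∈ U) : PW ρ U (t₁ * t₂) u (g₁ * g₂) := by
  intro v hv
  rw [rho_mul, h₁ _ (hg₂ v hv), h₂ v hv, map_smul, smul_smul, rho_mul]

/-- `PW 1` says that the commutator acts trivially. -/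
theorem comm_of_pw_one {u g : G} (h : PW ρ U 1 u g) (hgu : ∀ v ∈ U, ρ (g * u)⁻¹ v ∈ U) :
    ∀ v ∈ U, ρ (u * g * u⁻¹ * g⁻¹) v = v := by
  intro v hv
  have h1 := h _ (hgu v hv)
  rw [one_smul] at h1
  have e1 : ρ u (ρ g (ρ (g * u)⁻¹ v)) = ρ (u * g * u⁻¹ * g⁻¹) v := by
    rw [← rho_mul, ← rho_mul]
    congr 2
    group
  have e2 : ρ g (ρ u (ρ (g * u)⁻¹ v)) = v := by
    rw [← rho_mul, ← rho_mul, mul_inv_cancel, map_one]
    rfl
  rw [e1, e2] at h1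
  exact h1

end pairing

section commutator

variable {ρ : G →* End K V} {Q R : Subgroup G} {U : Submodule K V}

theorem scal_ne_zero {g : G} {t : K} {v : V} (hv0 : v ≠ 0) (h : ρ g v = t • v) : t ≠ 0 := by
  rintro rfl
  rw [zero_smul] at h
  have h2 := rho_inv_mul ρ g v
  rw [h, map_zero] at h2
  exact hv0 h2.symm

/-- Elements centralised by `y` are orthogonal to `[Q, y]`. -/
theorem pw_commY (hD : Data ρ Q R U) (hU0 : U ≠ ⊥) {y : G} (hy : ∀ g ∈ Q, y * g * y⁻¹ ∈ Q)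
    (hUyi : ∀ v ∈ U, ρ y⁻¹ v ∈ U) {c : G} (hcQ : c ∈ Q) (hcy : y * c * y⁻¹ = c) {g : G} (hg : g ∈ commY Q y) :
    PW ρ U 1 c g := by
  classical
  obtain ⟨v₀, hv₀, hv₀0⟩ := Submodule.exists_mem_ne_zero_of_ne_bot hU0
  have hinvQ : ∀ w ∈ Q, ∀ v ∈ U, ρ w⁻¹ v ∈ U := fun w hw => hD.hUQ _ (inv_mem hw)
  induction hg using Subgroup.closure_induction with
  | mem x hx =>
    obtain ⟨g, hg, rfl⟩ := hx
    obtain ⟨t, ht⟩ := hD.scal _ (hD.comm c hcQ g hg)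
    have ht0 : t ≠ 0 := scal_ne_zero hv₀0 (ht v₀ hv₀)
    have hpw : PW ρ U t c g := pw_of_scal (fun v hv => hD.hUQ _ (mul_mem hg hcQ) v hv) ht
    have h1 : PW ρ U t (y * c * y⁻¹) (y * g * y⁻¹) := pw_conj hpw hUyi
    rw [hcy] at h1
    have h2 : PW ρ U t⁻¹ c (y * g * y⁻¹)⁻¹ := pw_inv_right h1 ht0 (hinvQ _ (hy g hg))
    have e : (y * g * y⁻¹)⁻¹ = y * g⁻¹ * y⁻¹ := by group
    rw [e] at h2
    have h3 := pw_mul_right hpw h2 (hD.hUQ _ (hy _ (inv_mem hg)))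
    rwa [mul_inv_cancel₀ ht0] at h3
  | one =>
    intro v hv
    simp
  | mul a b ha hb iha ihb =>
    have h3 := pw_mul_right iha ihb (hD.hUQ _ (commY_le hy hb))
    rwa [mul_one] at h3
  | inv a ha iha =>
    have h3 := pw_inv_right iha one_ne_zero (hinvQ _ (commY_le hy ha))
    rwa [inv_one] at h3

theorem commY_normalized {y : G} (hy : ∀ g ∈ Q, y * g * y⁻¹ ∈ Q) {c : G} (hc : c ∈ commY Q y) :
    y * c * y⁻¹ ∈ commY Q y := by
  induction hc using Subgroup.closure_induction with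
  | mem x hx =>
    obtain ⟨g, hg, rfl⟩ := hx
    have e : y * (g * (y * g⁻¹ * y⁻¹)) * y⁻¹ = (y * g * y⁻¹) * (y * (y * g * y⁻¹)⁻¹ * y⁻¹) := by group
    rw [e]
    exact mem_commY (hy g hg)
  | one => simp
  | mul a b _ _ iha ihb =>
    have e : y * (a * b) * y⁻¹ = (y * a * y⁻¹) * (y * b * y⁻¹) := by group
    rw [e]
    exact mul_mem iha ihb
  | inv a _ iha =>
    have e : y * a⁻¹ * y⁻¹ = (y * a * y⁻¹)⁻¹ := by group
    rw [e]
    exact inv_mem iha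

/-- `Q = C_Q(y) [Q, y]`. -/
theorem exists_decomp_commY {p q : ℕ} [Fact p.Prime] [Fact q.Prime] (hpq : q ≠ p) (hQ : IsPGroup q Q) {y : G}
    (hy1 : y ^ p = 1) (hy : ∀ g ∈ Q, y * g * y⁻¹ ∈ Q) {t : G} (ht : t ∈ Q) :
    ∃ c ∈ Q, y * c * y⁻¹ = c ∧ c⁻¹ * t ∈ commY Q y := by
  classical
  have hcop : (Nat.card (Subgroup.zpowers y)).Coprime (Nat.card Q) := by
    rw [Nat.card_zpowers]
    obtain ⟨m, hm⟩ := IsPGroup.iff_card.mp hQ
    rw [hm]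
    have h1 : orderOf y ∣ p := orderOf_dvd_of_pow_eq_one hy1
    have h2 : Nat.Coprime p (q ^ m) := Nat.Coprime.pow_right _
      ((Nat.coprime_primes Fact.out Fact.out).mpr hpq.symm)
    exact h2.coprime_dvd_left h1
  have hpow : ∀ k : ℕ, ∀ g ∈ Q, y ^ k * g * (y ^ k)⁻¹ ∈ Q := fun k => conj_pow_mem hy k
  have hzp : ∀ a ∈ Subgroup.zpowers y, ∃ k : ℕ, a = y ^ k := by
    intro a ha
    obtain ⟨k, hk⟩ := (mem_powers_iff_mem_zpowers (x := y) (y := a)).mpr ha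
    exact ⟨k, hk.symm⟩
  have hnorm1 : ∀ (N : Subgroup G), (∀ c ∈ N, y * c * y⁻¹ ∈ N) → Subgroup.zpowers y ≤ Subgroup.normalizer (N : Set G) := by
    intro N hN
    rw [Subgroup.zpowers_le]
    rw [Subgroup.mem_normalizer_iff]
    intro h
    constructor
    · exact hN h
    · intro h1
      have hfin : ∀ k : ℕ, ∀ c ∈ N, y ^ k * c * (y ^ k)⁻¹ ∈ N := fun k => conj_pow_mem hN k
      have e0 : y ^ (orderOf y - 1) = y⁻¹ := by
        apply eq_inv_of_mul_eq_one_left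
        rw [← pow_succ, Nat.sub_add_cancel (orderOf_pos y), pow_orderOf_eq_one]
      have e : h = y ^ (orderOf y - 1) * (y * h * y⁻¹) * (y ^ (orderOf y - 1))⁻¹ := by
        rw [e0]
        group
      rw [e]
      exact hfin _ _ h1
  have hAK := hnorm1 Q hy
  have hNA := hnorm1 (commY Q y) (fun c hc => commY_normalized hy hc)
  have hsolv : Group.IsSolvable (Subgroup.zpowers y) ∨ Group.IsSolvable Q := Or.inl inferInstance
  have hstep : ∀ k : ℕ, t⁻¹ * (y ^ k * t * (y ^ k)⁻¹) ∈ commY Q y := by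
    intro k
    induction k with
    | zero => simp
    | succ k ih =>
      set s := y ^ k * t * (y ^ k)⁻¹ with hs
      have hsQ : s ∈ Q := hpow k t ht
      have e : t⁻¹ * (y ^ (k + 1) * t * (y ^ (k + 1))⁻¹) = (t⁻¹ * s) * (s⁻¹ * (y * s * y⁻¹)) := by
        rw [hs, pow_succ']
        group
      rw [e]
      refine mul_mem ih ?_
      have h3 := mem_commY (y := y) (inv_mem hsQ)
      rwa [inv_inv] at h3
  obtain ⟨c, hc, hcN⟩ := Cfsg.Agent.Lib.Coprime.Coset.exists_centralizer_mem_coset hAK hcop hsolv (commY_le hy) hNA t ht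
    (by
      intro a ha
      obtain ⟨k, rfl⟩ := hzp a ha
      exact hstep k)
  obtain ⟨hcQ, hcC⟩ := Subgroup.mem_inf.mp hc
  refine ⟨c, hcQ, ?_, ?_⟩
  · have := Subgroup.mem_centralizer_iff.mp hcC y (Subgroup.mem_zpowers y)
    rw [this]
    group
  · have h1 := inv_mem hcN
    have e : (t⁻¹ * c)⁻¹ = c⁻¹ * t := by group
    rwa [e] at h1

/-- The Heisenberg structure on `[Q, y]`. -/
theorem commY_data_odd {p q : ℕ} [Fact p.Prime] [Fact q.Prime] (hpq : q ≠ p) (hD : Data ρ Q R U) (hU0 : U ≠ ⊥)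
    (hQ : IsPGroup q Q) {y : G} (hy1 : y ^ p = 1) (hy : ∀ g ∈ Q, y * g * y⁻¹ ∈ Q)
    (hUyi : ∀ v ∈ U, ρ y⁻¹ v ∈ U) : Data ρ (commY Q y) (R ⊓ commY Q y) U := by
  classical
  have hle := commY_le hy
  have hinvQ : ∀ w ∈ Q, ∀ v ∈ U, ρ w⁻¹ v ∈ U := fun w hw => hD.hUQ _ (inv_mem hw)
  refine ⟨inf_le_right, fun g hg v hv => hD.hUQ g (hle hg) v hv,
    fun r hr => hD.scal r (Subgroup.mem_inf.mp hr).1, ?_, ?_⟩
  · intro u hu g hg
    exact Subgroup.mem_inf.mpr ⟨hD.comm u (hle hu) g (hle hg),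
      mul_mem (mul_mem (mul_mem hu hg) (inv_mem hu)) (inv_mem hg)⟩
  · intro g hg hgR
    have hgR' : g ∉ R := fun h' => hgR (Subgroup.mem_inf.mpr ⟨h', hg⟩)
    have hgQ := hle hg
    obtain ⟨u₀, hu₀, v₀, hv₀, hne⟩ := hD.nd g hgQ hgR'
    have hv₀0 : v₀ ≠ 0 := by
      rintro rfl
      simp at hne
    obtain ⟨c, hcQ, hcy, hcw⟩ := exists_decomp_commY hpq hQ hy1 hy hu₀
    set w := c⁻¹ * u₀ with hw
    have hu₀e : u₀ = c * w := by rw [hw]; group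
    have hwQ : w ∈ Q := hle hcw
    obtain ⟨τ, hτ⟩ := hD.scal _ (hD.comm w hwQ g hgQ)
    refine ⟨w, hcw, v₀, hv₀, ?_⟩
    rw [hτ v₀ hv₀]
    intro hfix
    have hτ1 : τ = 1 := by
      have h3 : (τ - 1) • v₀ = 0 := by
        rw [sub_smul, one_smul, hfix, sub_self]
      exact sub_eq_zero.mp ((smul_eq_zero.mp h3).resolve_right hv₀0)
    have h1 : PW ρ U τ w g := pw_of_scal (fun v hv => hD.hUQ _ (mul_mem hgQ hwQ) v hv) hτ
    have h2 : PW ρ U 1 c g := pw_commY hD hU0 hy hUyi hcQ hcy hg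
    have h3 : PW ρ U (1 * τ) (c * w) g := pw_mul_left h2 h1 (hD.hUQ _ hwQ)
    rw [hτ1, mul_one, ← hu₀e] at h3
    exact hne (comm_of_pw_one h3 (hinvQ _ (mul_mem hgQ hu₀)) v₀ hv₀)

/-- The fixed points of `y` in `[Q, y]` lie in `R`. -/
theorem fixed_commY {p q : ℕ} [Fact p.Prime] [Fact q.Prime] (hpq : q ≠ p) (hD : Data ρ Q R U) (hU0 : U ≠ ⊥)
    (hQ : IsPGroup q Q) {y : G} (hy1 : y ^ p = 1) (hy : ∀ g ∈ Q, y * g * y⁻¹ ∈ Q)
    (hUyi : ∀ v ∈ U, ρ y⁻¹ v ∈ U) {c : G} (hc : c ∈ commY Q y) (hcy : y * c * y⁻¹ = c) : c ∈ R := by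
  classical
  by_contra hcR
  have hle := commY_le hy
  have hD₁ := commY_data_odd hpq hD hU0 hQ hy1 hy hUyi
  have hcR' : c ∉ R ⊓ commY Q y := fun h => hcR (Subgroup.mem_inf.mp h).1
  obtain ⟨u, hu, v, hv, hne⟩ := hD₁.nd c hc hcR'
  have hcQ := hle hc
  have huQ := hle hu
  have h1 : PW ρ U 1 c u := pw_commY hD hU0 hy hUyi hcQ hcy hu
  have h2 := comm_of_pw_one h1 (fun v hv => hD.hUQ _ (inv_mem (mul_mem huQ hcQ)) v hv)
  apply hne
  have e : u * c * u⁻¹ * c⁻¹ = (c * u * c⁻¹ * u⁻¹)⁻¹ := by group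
  rw [e]
  have h3 := h2 v hv
  have h4 := rho_inv_mul ρ (c * u * c⁻¹ * u⁻¹) v
  rw [h3] at h4
  exact h4

end commutator

section main

/-- **The type theorem.** -/
theorem type_odd {p : ℕ} [hp : Fact p.Prime] [CharP K p] [IsAlgClosed K] [FiniteDimensional K V] (ρ : G →* End K V) (b : G) {n : ℕ}
    (hn : 1 ≤ n) (hb : orderOf b = p ^ n) {Q R : Subgroup G} {q : ℕ} [Fact q.Prime] (hpq : q ≠ p)
    (hQ : IsPGroup q Q) (hQK : (Nat.card Q : K) ≠ 0) (hQb : ∀ g ∈ Q, b * g * b⁻¹ ∈ Q) {U : Submodule K V}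
    (hU0 : U ≠ ⊥) (hUb : ∀ v ∈ U, ρ b v ∈ U) (hD : Data ρ Q R U)
    (hRb : ∀ g ∈ Q, b * g * b⁻¹ ∈ R ↔ g ∈ R)
    (hs : ∀ v ∈ U, ((ρ b - 1) ^ (p ^ n - 1)) v = 0) {y : G} (hy : y = b ^ p ^ (n - 1))
    (hne : ∃ g ∈ Q, y * g * y⁻¹ * g⁻¹ ∉ R) :
    ∃ m : ℕ, 1 ≤ m ∧ p ^ n = q ^ m + 1 ∧
      Nat.card (↥(commY Q y) ⧸ R.subgroupOf (commY Q y)) = q ^ (2 * m) := by
  classical
  have hbpow : b ^ p ^ n = 1 := by
    rw [← hb]; exact pow_orderOf_eq_one b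
  have hn' : n - 1 + 1 = n := by omega
  have hN : 0 < p ^ n := pow_pos hp.out.pos n
  have hy1 : y ^ p = 1 := by
    rw [hy, ← pow_mul, ← pow_succ, hn', hbpow]
  have hby : b * y = y * b := by
    rw [hy]
    exact ((Commute.refl b).pow_right _).eq
  have hyQ : ∀ g ∈ Q, y * g * y⁻¹ ∈ Q := by
    rw [hy]
    exact conj_pow_mem hQb _
  have hUy : ∀ v ∈ U, ρ y v ∈ U := by
    rw [hy]
    exact rho_pow_mem ρ hUb _
  have hUyi : ∀ v ∈ U, ρ y⁻¹ v ∈ U := by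
    have e : y⁻¹ = y ^ (p - 1) := by
      apply inv_eq_of_mul_eq_one_left
      rw [← pow_succ, Nat.sub_add_cancel hp.out.pos, hy1]
    rw [e]
    exact rho_pow_mem ρ hUy _
  set Q₁ := commY Q y with hQ₁
  have hQ₁Q : Q₁ ≤ Q := commY_le hyQ
  have hD₁ : Data ρ Q₁ (R ⊓ Q₁) U := commY_data_odd hpq hD hU0 hQ hy1 hyQ hUyi
  have hQ₁K : (Nat.card Q₁ : K) ≠ 0 := card_ne_zero_of_le hQ₁Q hQK
  have hQ₁b : ∀ g ∈ Q₁, b * g * b⁻¹ ∈ Q₁ := by
    intro g hg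
    have h1 : Q₁ ≤ Q₁.comap (MulAut.conj b).toMonoidHom := by
      rw [hQ₁, commY, Subgroup.closure_le]
      rintro _ ⟨t, ht, rfl⟩
      refine Subgroup.subset_closure ⟨b * t * b⁻¹, hQb t ht, ?_⟩
      simp only [MulAut.conj_apply, MulEquiv.toMonoidHom_eq_coe, MonoidHom.coe_coe]
      have hy' : y = b * y * b⁻¹ := by rw [hby]; group
      calc b * (t * (y * t⁻¹ * y⁻¹)) * b⁻¹
          = (b * t * b⁻¹) * ((b * y * b⁻¹) * (b * t * b⁻¹)⁻¹ * (b * y * b⁻¹)⁻¹) := by group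
        _ = _ := by rw [← hy']
    exact h1 hg
  have hHQ₁ := hD₁.isHeis
  have hHQ₁' : IsHeis (qRep ρ Q₁ U hD₁.hUQ) (R.subgroupOf Q₁) := by
    have e : (R ⊓ Q₁).subgroupOf Q₁ = R.subgroupOf Q₁ := by
      ext g
      simp [Subgroup.mem_subgroupOf]
    rwa [e] at hHQ₁
  obtain ⟨g₀, hg₀, hg₀ne⟩ := hne
  have hCtop : R.subgroupOf Q₁ ≠ ⊤ := by
    intro htop
    apply hg₀ne
    have h1 : g₀ * (y * g₀⁻¹ * y⁻¹) ∈ Q₁ := mem_commY hg₀
    have h2 : (⟨_, h1⟩ : Q₁) ∈ R.subgroupOf Q₁ := by rw [htop]; trivial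
    have h3 := inv_mem (Subgroup.mem_subgroupOf.mp h2)
    have e : y * g₀ * y⁻¹ * g₀⁻¹ = (g₀ * (y * g₀⁻¹ * y⁻¹))⁻¹ := by group
    rw [e]
    exact h3
  have hinvC : ∀ c : Q₁, conjAutOf Q₁ b hQ₁b c ∈ R.subgroupOf Q₁ ↔ c ∈ R.subgroupOf Q₁ := by
    intro c
    rw [Subgroup.mem_subgroupOf, Subgroup.mem_subgroupOf, conjAutOf_coe]
    exact hRb c (hQ₁Q c.2)
  have hCy : ∀ c : Q₁, (b ^ p ^ (n - 1)) * (c : G) * (b ^ p ^ (n - 1))⁻¹ = c → c ∈ R.subgroupOf Q₁ := by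
    intro c hc
    rw [← hy] at hc
    rw [Subgroup.mem_subgroupOf]
    exact fixed_commY hpq hD hU0 hQ hy1 hyQ hUyi c.2 hc
  rcases level3 ρ b hn hb Q₁ hQ₁K hQ₁b U hU0 hUb hD₁.hUQ (R.subgroupOf Q₁) hHQ₁' hCtop hinvC hCy (p ^ n - 1) hs with
    h | ⟨-, D, hD1, hD2, hD3⟩
  · omega
  · obtain ⟨mQ, hmQ⟩ := IsPGroup.iff_card.mp hQ
    have hcardQ₁ : Nat.card (↥Q₁ ⧸ R.subgroupOf Q₁) ∣ q ^ mQ := by
      have h1 : Nat.card (↥Q₁ ⧸ R.subgroupOf Q₁) ∣ Nat.card Q₁ := Subgroup.card_quotient_dvd_card _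
      have h2 : Nat.card Q₁ ∣ Nat.card Q := Subgroup.card_dvd_of_le hQ₁Q
      rw [hmQ] at h2
      exact h1.trans h2
    have hDd : D ∣ q ^ mQ := by
      rw [← hD2] at hcardQ₁
      exact (Dvd.intro _ rfl).trans hcardQ₁
    obtain ⟨m, _, hm⟩ := (Nat.dvd_prime_pow Fact.out).mp hDd
    have hm1 : 1 ≤ m := by
      by_contra hcon
      have : m = 0 := by omega
      rw [this, pow_zero] at hm
      omega
    refine ⟨m, hm1, by omega, ?_⟩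
    rw [← hD2, hm, two_mul, pow_add]

end main

end Cfsg.Agent.Lib.LastPow.TypeOdd
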