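import Mathlib
import Cfsg.Agent.Lib.LastPow.Action
import Cfsg.Agent.Lib.LastPow.Type

/-!
# The commutator of two last powers on an abelian section `Q / R`
-/

set_option autoImplicit false
set_option linter.unusedSectionVars false
set_option linter.style.haveILetI false

namespace Cfsg.Agent.Lib.LastPow.Section

open Cfsg.Agent.Lib.OddOrder.HHGroup Cfsg.Agent.Lib.Gross.Type
open Cfsg.Agent.Lib.LastPow.Action
open scoped commutatorElement

variable {G : Type*} [Group G] [Finite G]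

theorem last_comm_section {p q : ℕ} [hp : Fact p.Prime] [hq : Fact q.Prime] (hp2 : p ≠ 2) (hpq : q ≠ p)
    {Q R H : Subgroup G} (hRQ : R ≤ Q) (hQ : IsPGroup q Q) (hcomm : ∀ u ∈ Q, ∀ g ∈ Q, u * g * u⁻¹ * g⁻¹ ∈ R)
    (hH : IsPGroup p H) (hHQ : ∀ h ∈ H, ∀ g ∈ Q, h * g * h⁻¹ ∈ Q)
    (hHR : ∀ h ∈ H, ∀ g ∈ Q, h * g * h⁻¹ ∈ R ↔ g ∈ R)
    {b b' : G} (hbH : b ∈ H) (hbH' : b' ∈ H) {n n' m m' : ℕ} (hb : b ^ p ^ n = 1) (hb' : b' ^ p ^ n' = 1)
    (hn : 1 ≤ n) (hn' : 1 ≤ n') (hm : 1 ≤ m) (hm' : 1 ≤ m') (hD : p ^ n = q ^ m + 1) (hD' : p ^ n' = q ^ m' + 1)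
    (hA : Nat.card (↥(commY Q (b ^ p ^ (n - 1))) ⧸ R.subgroupOf (commY Q (b ^ p ^ (n - 1)))) = q ^ (2 * m))
    (hA' : Nat.card (↥(commY Q (b' ^ p ^ (n' - 1))) ⧸ R.subgroupOf (commY Q (b' ^ p ^ (n' - 1)))) = q ^ (2 * m')) :
    ∀ g ∈ Q, ⁅b ^ p ^ (n - 1), b' ^ p ^ (n' - 1)⁆ * g * ⁅b ^ p ^ (n - 1), b' ^ p ^ (n' - 1)⁆⁻¹ * g⁻¹ ∈ R := by
  classical
  letI : Fintype Q := Fintype.ofFinite _
  have hconjR : ∀ g ∈ Q, ∀ r ∈ R, g * r * g⁻¹ ∈ R := by
    intro g hg r hr
    have h1 := hcomm g hg r (hRQ hr)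
    have e : g * r * g⁻¹ = (g * r * g⁻¹ * r⁻¹) * r := by group
    rw [e]
    exact mul_mem h1 hr
  haveI hnorm : (R.subgroupOf Q).Normal := ⟨fun r hr g => by
    rw [Subgroup.mem_subgroupOf] at hr ⊢
    exact hconjR g g.2 r hr⟩
  set C := R.subgroupOf Q with hC
  have hΩcomm : ∀ x t : Q ⧸ C, x * t = t * x := by
    intro x t
    obtain ⟨x, rfl⟩ := QuotientGroup.mk_surjective x
    obtain ⟨t, rfl⟩ := QuotientGroup.mk_surjective t
    rw [← QuotientGroup.mk_mul, ← QuotientGroup.mk_mul, QuotientGroup.eq, hC, Subgroup.mem_subgroupOf]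
    have h1 := hcomm (t⁻¹ : Q) (t⁻¹ : Q).2 (x⁻¹ : Q) (x⁻¹ : Q).2
    simpa [mul_assoc] using h1
  letI cg : CommGroup (Q ⧸ C) := { (inferInstance : Group (Q ⧸ C)) with mul_comm := hΩcomm }
  let F := Additive (Q ⧸ C)
  let σ : H → MulAut Q := fun h => conjAutOf Q (h : G) (hHQ h h.2)
  have hσC : ∀ (h : H) (c : Q), σ h c ∈ C ↔ c ∈ C := by
    intro h c
    rw [hC, Subgroup.mem_subgroupOf, Subgroup.mem_subgroupOf, conjAutOf_coe]
    exact hHR h h.2 c c.2
  let τ : H → MulAut (Q ⧸ C) := fun h => permOf C (σ h) (hσC h)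
  have hτmk : ∀ (h : H) (g : Q), τ h (g : Q ⧸ C) = ((σ h g : Q) : Q ⧸ C) := fun h g => permOf_mk C (σ h) (hσC h) g
  letI act : DistribMulAction H F :=
    { smul := fun h x => Additive.ofMul (τ h (Additive.toMul x))
      one_smul := by
        intro x
        obtain ⟨g, hg⟩ := QuotientGroup.mk_surjective (Additive.toMul x)
        apply Additive.toMul.injective
        show τ 1 (Additive.toMul x) = Additive.toMul x
        rw [← hg, hτmk]
        congr 1
        apply Subtype.ext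
        show ((σ 1 g : Q) : G) = g
        rw [conjAutOf_coe]
        simp
      mul_smul := by
        intro s t x
        obtain ⟨g, hg⟩ := QuotientGroup.mk_surjective (Additive.toMul x)
        apply Additive.toMul.injective
        show τ (s * t) (Additive.toMul x) = τ s (τ t (Additive.toMul x))
        rw [← hg, hτmk, hτmk, hτmk]
        congr 1
        apply Subtype.ext
        simp only [σ, conjAutOf_coe, Subgroup.coe_mul]
        group
      smul_zero := fun h => by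
        show Additive.ofMul (τ h 1) = 0
        rw [map_one]
        rfl
      smul_add := fun h x y => by
        show Additive.ofMul (τ h (Additive.toMul x * Additive.toMul y)) = _
        rw [map_mul]
        rfl }
  have hsmul : ∀ (h : H) (g : Q), h • Additive.ofMul ((g : Q) : Q ⧸ C) =
      Additive.ofMul (((σ h g : Q) : Q) : Q ⧸ C) := fun h g => by
    show Additive.ofMul (τ h ((g : Q) : Q ⧸ C)) = _
    rw [hτmk]
  haveI hFfin : Finite F := inferInstanceAs (Finite (Q ⧸ C))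
  have hsubmk : ∀ a d : Q ⧸ C, (Additive.ofMul a : F) - Additive.ofMul d = Additive.ofMul (a * d⁻¹) := by
    intro a d
    rw [sub_eq_add_neg]
    rfl
  have hcard : ∀ η : H, Nat.card (cm F η) = Nat.card (↥(commY Q (η : G)) ⧸ R.subgroupOf (commY Q (η : G))) := by
    intro η
    set y : G := (η : G) with hy
    have hyQ : ∀ g ∈ Q, y * g * y⁻¹ ∈ Q := hHQ y η.2
    have hle := commY_le hyQ
    let φ : ↥(commY Q y) →* Q ⧸ C := (QuotientGroup.mk' C).comp (Subgroup.inclusion hle)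
    have hφker : φ.ker = R.subgroupOf (commY Q y) := by
      ext c
      rw [MonoidHom.mem_ker, Subgroup.mem_subgroupOf]
      show ((⟨c, hle c.2⟩ : Q) : Q ⧸ C) = 1 ↔ _
      rw [QuotientGroup.eq_one_iff, hC, Subgroup.mem_subgroupOf]
    have hφcard : Nat.card φ.range = Nat.card (↥(commY Q y) ⧸ R.subgroupOf (commY Q y)) := by
      rw [← Subgroup.index_ker, hφker, Subgroup.index_eq_card]
    rw [← hφcard]
    have hσy : ∀ g : Q, ((σ η g : Q) : G) = y * g * y⁻¹ := fun g => conjAutOf_coe Q y hyQ g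
    have hmem1 : ∀ (c : G) (hc : c ∈ commY Q y), Additive.ofMul (((⟨c, hle hc⟩ : Q)) : Q ⧸ C) ∈ cm F η := by
      intro c hc
      induction hc using Subgroup.closure_induction with
      | mem x hx =>
        obtain ⟨g, hg, rfl⟩ := hx
        refine mem_cm.mpr ⟨Additive.ofMul (((⟨g⁻¹, inv_mem hg⟩ : Q)) : Q ⧸ C), ?_⟩
        rw [hsmul, hsubmk]
        apply Additive.toMul.injective
        show (((σ η ⟨g⁻¹, inv_mem hg⟩ : Q)) : Q ⧸ C) * (((⟨g⁻¹, inv_mem hg⟩ : Q)) : Q ⧸ C)⁻¹ = _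
        rw [hΩcomm, ← QuotientGroup.mk_inv, ← QuotientGroup.mk_mul]
        congr 1
        apply Subtype.ext
        simp only [Subgroup.coe_mul, Subgroup.coe_inv, hσy, inv_inv]
      | one =>
        exact zero_mem _
      | mul a b ha hb iha ihb =>
        exact add_mem iha ihb
      | inv a ha iha =>
        exact neg_mem iha
    have hmem : ∀ x : F, x ∈ cm F η ↔ Additive.toMul x ∈ φ.range := by
      intro x
      constructor
      · intro hx
        obtain ⟨v, hv⟩ := mem_cm.mp hx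
        obtain ⟨g, hg⟩ := QuotientGroup.mk_surjective (Additive.toMul v)
        have hv' : v = Additive.ofMul ((g : Q) : Q ⧸ C) := by
          apply Additive.toMul.injective
          exact hg.symm
        rw [hv', hsmul] at hv
        have hgen : (g : G) * (y * (g : G)⁻¹ * y⁻¹) ∈ commY Q y := mem_commY g.2
        refine ⟨⟨_, inv_mem hgen⟩, ?_⟩
        rw [← hv, hsubmk]
        show ((⟨((g : G) * (y * (g : G)⁻¹ * y⁻¹))⁻¹, hle (inv_mem hgen)⟩ : Q) : Q ⧸ C) =
          (((σ η g : Q)) : Q ⧸ C) * ((g : Q) : Q ⧸ C)⁻¹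
        rw [← QuotientGroup.mk_inv, ← QuotientGroup.mk_mul]
        congr 1
        apply Subtype.ext
        simp only [Subgroup.coe_mul, Subgroup.coe_inv, hσy]
        group
      · rintro ⟨⟨c, hc⟩, hcx⟩
        have e : x = Additive.ofMul (((⟨c, hle hc⟩ : Q)) : Q ⧸ C) := by
          apply Additive.toMul.injective
          exact hcx.symm
        rw [e]
        exact hmem1 c hc
    exact Nat.card_congr (Equiv.subtypeEquiv Additive.toMul hmem)
  obtain ⟨k, hk⟩ := IsPGroup.iff_card.mp hQ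
  have hcop : (Nat.card F).Coprime p := by
    have h1 : Nat.card F ∣ q ^ k := by
      rw [← hk]
      exact Subgroup.card_quotient_dvd_card C
    have h2 : Nat.Coprime (q ^ k) p := Nat.Coprime.pow_left _ ((Nat.coprime_primes Fact.out Fact.out).mpr hpq)
    exact h2.coprime_dvd_left h1
  let bH : H := ⟨b, hbH⟩
  let bH' : H := ⟨b', hbH'⟩
  have hres := last_comm (F := F) (P := H) (q := q) hp2 hH hcop bH bH' (n := n) (n' := n') (m := m) (m' := m')
    (Subtype.ext hb) (Subtype.ext hb') hn hn' hm hm' hD hD' (by rw [hcard]; exact hA) (by rw [hcard]; exact hA')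
  set c : H := ⁅bH ^ p ^ (n - 1), bH' ^ p ^ (n' - 1)⁆ with hc
  have hce : (c : G) = ⁅b ^ p ^ (n - 1), b' ^ p ^ (n' - 1)⁆ := rfl
  intro g hg
  have h1 := hres (Additive.ofMul (((⟨g, hg⟩ : Q)) : Q ⧸ C))
  rw [hsmul] at h1
  have h2 : (((σ c ⟨g, hg⟩ : Q)) : Q ⧸ C) = ((⟨g, hg⟩ : Q) : Q ⧸ C) := Additive.ofMul.injective h1
  rw [QuotientGroup.eq, hC, Subgroup.mem_subgroupOf] at h2
  simp only [Subgroup.coe_mul, Subgroup.coe_inv, σ, conjAutOf_coe] at h2
  rw [← hce]
  have h3 := hHQ c c.2 g hg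
  have h4 := hconjR _ h3 _ (inv_mem h2)
  have e : (c : G) * g * (c : G)⁻¹ * g⁻¹ =
      ((c : G) * g * (c : G)⁻¹) * (((c : G) * g * (c : G)⁻¹)⁻¹ * g)⁻¹ * ((c : G) * g * (c : G)⁻¹)⁻¹ := by group
  rw [e]
  exact h4

end Cfsg.Agent.Lib.LastPow.Section
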