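import Mathlib
import Cfsg.Agent.Lib.LastPow.Section
import Cfsg.Agent.Lib.Gross.TheoremU
import Cfsg.Agent.Lib.HallHigman.TheoremB

/-!
# Last powers commute

`X` a `p`-solvable linear group in characteristic `p` with `O_p(X) = 1`, `p` odd, `H` a `p`-subgroup, `x, x' ∈ H`
with `x ^ p ^ a = 1`, `(ρ x - 1) ^ (p ^ a - 1) = 0`, and likewise for `x'`. Then `x ^ p ^ (a - 1)` and
`x' ^ p ^ (a - 1)` commute.
-/

set_option autoImplicit false
set_option linter.unusedSectionVars false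
set_option linter.style.haveILetI false

namespace Cfsg.Agent.Lib.LastPow.Key

open Module Cfsg Cfsg.Agent.Lib.Solvable.PSeries Cfsg.Agent.Lib.Basic.PCore
open Cfsg.Agent.Lib.HallHigman.Reduce Cfsg.Agent.Lib.HallHigman.Block Cfsg.Agent.Lib.HallHigman.MinGroup
open Cfsg.Agent.Lib.Ward Cfsg.Agent.Lib.Gross.Type Cfsg.Agent.Lib.Gross.Weights
open Cfsg.Agent.Lib.Gross.TheoremU Cfsg.Agent.Lib.HallHigman.TheoremB
open Cfsg.Agent.Lib.LastPow.TypeOdd Cfsg.Agent.Lib.LastPow.Section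
open scoped commutatorElement

universe u

variable {X : Type u} [Group X] [Finite X] {p : ℕ} [hp : Fact p.Prime]

/-- An element acting on a `q`-group, commuting with the commutators, is trivial on it. -/
theorem eq_of_comm_fixed {q : ℕ} {c g : X} (hcop : (orderOf c).Coprime q) {e : ℕ}
    (he : (c * g * c⁻¹ * g⁻¹) ^ q ^ e = 1) (hfix : c * (c * g * c⁻¹ * g⁻¹) * c⁻¹ = c * g * c⁻¹ * g⁻¹) :
    c * g * c⁻¹ = g := by
  set z := c * g * c⁻¹ * g⁻¹ with hz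
  have hzx : c * g * c⁻¹ = z * g := by rw [hz]; group
  have hpow : ∀ i : ℕ, c ^ i * g * (c ^ i)⁻¹ = z ^ i * g := by
    intro i
    induction i with
    | zero => simp
    | succ i ih =>
      have hci : c * z ^ i * c⁻¹ = z ^ i := by
        rw [← conj_pow, hfix]
      calc c ^ (i + 1) * g * (c ^ (i + 1))⁻¹ = c * (c ^ i * g * (c ^ i)⁻¹) * c⁻¹ := by
            rw [pow_succ', mul_inv_rev]; group
        _ = (c * z ^ i * c⁻¹) * (c * g * c⁻¹) := by rw [ih]; group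
        _ = z ^ i * (z * g) := by rw [hci, hzx]
        _ = z ^ (i + 1) * g := by
            rw [pow_succ]
            exact (mul_assoc _ _ _).symm
  have h1 := hpow (orderOf c)
  rw [pow_orderOf_eq_one, one_mul, inv_one, mul_one] at h1
  have hck : z ^ orderOf c = 1 := by
    have : z ^ orderOf c * g = 1 * g := by rw [← h1, one_mul]
    exact mul_right_cancel this
  have h2 : orderOf z ∣ orderOf c := orderOf_dvd_of_pow_eq_one hck
  have h3 : orderOf z ∣ q ^ e := orderOf_dvd_of_pow_eq_one he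
  have h4 : orderOf z = 1 := Nat.eq_one_of_dvd_coprimes (hcop.pow_right e) h2 h3
  rw [hzx, orderOf_eq_one_iff.mp h4, one_mul]

/-- An element `≠ 1` of a `p`-subgroup moves an invariant `q`-subgroup, `q ≠ p`. -/
theorem exists_invariant_q_subgroup_H (hsol : IsPSolvable p X) (hOp : pCore p X = ⊥) {H : Subgroup X}
    (hH : IsPGroup p H) {c : X} (hcH : c ∈ H) (hc1 : c ≠ 1) :
    ∃ (q : ℕ) (_ : Fact q.Prime) (S : Subgroup X), p ≠ q ∧ IsPGroup q S ∧ (∀ h ∈ H, ∀ g ∈ S, h * g * h⁻¹ ∈ S) ∧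
      ∃ g ∈ S, c * g * c⁻¹ ≠ g := by
  classical
  set N := pPrimeCore p X with hN
  haveI hNn : N.Normal := pPrimeCore_normal p X
  have hNcop : (Nat.card N).Coprime p := pPrimeCore_coprime p
  have hA : H ≤ Subgroup.normalizer (N : Set X) := by
    apply Cfsg.Agent.Lib.Coprime.InvSylow.le_normalizer_of_forall_conj_mem
    intro a _ t ht
    exact hNn.conj_mem t ht a
  obtain ⟨kH, hkH⟩ := IsPGroup.iff_card.mp hH
  have hcop : (Nat.card H).Coprime (Nat.card N) := by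
    rw [hkH]
    exact (Nat.Coprime.pow_right kH hNcop).symm
  haveI : Group.IsNilpotent H := hH.isNilpotent
  have hsolv : Group.IsSolvable H ∨ Group.IsSolvable N := Or.inl inferInstance
  by_contra hcon
  push Not at hcon
  -- `c` centralises all invariant Sylow subgroups
  have hall : ∀ (q : ℕ) [Fact q.Prime], ∃ P : Sylow q N, ∀ g ∈ (P : Subgroup N), c * (g : X) * c⁻¹ = g := by
    intro q hq
    obtain ⟨P, hP⟩ := Cfsg.Agent.Lib.Coprime.InvSylow.exists_invariant_sylow hA hcop hsolv q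
    refine ⟨P, fun g hg => ?_⟩
    by_cases hpq : p = q
    · -- the Sylow `p`-subgroup of `N` is trivial
      subst hpq
      have h1 : IsPGroup p (P : Subgroup N) := P.isPGroup'
      have h2 : orderOf g ∣ Nat.card N := orderOf_dvd_natCard g
      obtain ⟨k, hk⟩ := h1 ⟨g, hg⟩
      have h3 : g ^ p ^ k = 1 := by
        have := congrArg Subtype.val hk
        simpa using this
      have h4 : orderOf g ∣ p ^ k := orderOf_dvd_of_pow_eq_one h3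
      have h5 : orderOf g = 1 := Nat.eq_one_of_dvd_coprimes (hNcop.pow_right k) h2 h4
      have h6 : g = 1 := orderOf_eq_one_iff.mp h5
      rw [h6]
      simp
    · have hq' := hcon q hq ((P : Subgroup N).map N.subtype) hpq (P.isPGroup'.map _)
        (fun h hhH g hg => by
          have := (Subgroup.mem_normalizer_iff.mp (hP hhH) g).mp hg
          exact this)
      exact hq' g ⟨g, hg, rfl⟩
  -- hence `c` centralises `N`
  set Cy : Subgroup N := (Subgroup.centralizer ({c} : Set X)).subgroupOf N with hCy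
  have hCytop : Cy = ⊤ := by
    by_contra hne
    have hidx : Cy.index ≠ 1 := fun h => hne (Subgroup.index_eq_one.mp h)
    obtain ⟨q, hq, hqd⟩ := Nat.exists_prime_and_dvd hidx
    haveI : Fact q.Prime := ⟨hq⟩
    obtain ⟨P, hP⟩ := hall q
    have hle : (P : Subgroup N) ≤ Cy := by
      intro g hg
      have h1 := hP g hg
      rw [hCy, Subgroup.mem_subgroupOf, Subgroup.mem_centralizer_singleton_iff]
      calc (g : X) * c = (c * g * c⁻¹) * c := by rw [h1]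
        _ = c * g := by group
    have h2 : Cy.index ∣ (P : Subgroup N).index := Subgroup.index_dvd_of_le hle
    exact P.not_dvd_index (dvd_trans hqd h2)
  have hyC : c ∈ Subgroup.centralizer (N : Set X) := by
    rw [Subgroup.mem_centralizer_iff]
    intro g hg
    have h1 : (⟨g, hg⟩ : N) ∈ Cy := by rw [hCytop]; trivial
    rw [hCy, Subgroup.mem_subgroupOf, Subgroup.mem_centralizer_singleton_iff] at h1
    exact h1
  have hyN : c ∈ N := centralizer_pPrimeCore_le hsol hOp hyC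
  have h1 : orderOf c ∣ Nat.card N := by
    have := orderOf_dvd_natCard (⟨c, hyN⟩ : N)
    rwa [Subgroup.orderOf_mk] at this
  have h2 : orderOf c ∣ p ^ kH := by
    rw [← hkH]
    have := orderOf_dvd_natCard (⟨c, hcH⟩ : H)
    rwa [Subgroup.orderOf_mk] at this
  have h3 : orderOf c = 1 := Nat.eq_one_of_dvd_coprimes (hNcop.pow_right kH) h1 h2
  exact hc1 (orderOf_eq_one_iff.mp h3)

/-- Minimality for the `H`-action. -/
structure IsMinInv (H Q : Subgroup X) (c : X) : Prop where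
  hinv : ∀ h ∈ H, ∀ g ∈ Q, h * g * h⁻¹ ∈ Q
  ne : ∃ g ∈ Q, c * g * c⁻¹ ≠ g
  min : ∀ L : Subgroup X, L ≤ Q → L ≠ Q → (∀ h ∈ H, ∀ g ∈ L, h * g * h⁻¹ ∈ L) → ∀ g ∈ L, c * g * c⁻¹ = g

theorem exists_isMinInv (H S : Subgroup X) (c : X) (hx : ∀ h ∈ H, ∀ g ∈ S, h * g * h⁻¹ ∈ S)
    (hne : ∃ g ∈ S, c * g * c⁻¹ ≠ g) : ∃ Q ≤ S, IsMinInv H Q c := by
  classical
  let F : Set (Subgroup X) := {L | L ≤ S ∧ (∀ h ∈ H, ∀ g ∈ L, h * g * h⁻¹ ∈ L) ∧ ∃ g ∈ L, c * g * c⁻¹ ≠ g}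
  have hF : F.Nonempty := ⟨S, le_rfl, hx, hne⟩
  obtain ⟨Q, hQ, hmin⟩ := (wellFounded_lt (α := Subgroup X)).has_min F hF
  refine ⟨Q, hQ.1, hQ.2.1, hQ.2.2, ?_⟩
  intro L hLQ hne hLx g hg
  by_contra hcon
  exact hmin L ⟨le_trans hLQ hQ.1, hLx, g, hg, hcon⟩ (lt_of_le_of_ne hLQ hne)

/-- `Q` has class at most two. -/
theorem comm_central {H Q : Subgroup X} {c : X} (h : IsMinInv H Q c) {q : ℕ} [Fact q.Prime] (hpq : q ≠ p)
    (hH : IsPGroup p H) (hQ : IsPGroup q Q) (hcH : c ∈ H) :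
    ∀ u ∈ Q, ∀ g ∈ Q, ∀ w ∈ Q, (u * g * u⁻¹ * g⁻¹) * w = w * (u * g * u⁻¹ * g⁻¹) := by
  classical
  have hQbot : Q ≠ ⊥ := by
    intro h0
    obtain ⟨g, hg, hg2⟩ := h.ne
    rw [h0, Subgroup.mem_bot] at hg
    apply hg2
    rw [hg]
    simp
  haveI : Group.IsNilpotent Q := hQ.isNilpotent
  have hsolQ : Group.IsSolvable Q := inferInstance
  have hlt := Cfsg.Agent.Lib.Components.Fitting.commutator_lt_of_solvable hQbot hsolQ
  set Q' : Subgroup X := ⁅Q, Q⁆ with hQ'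
  have hmapQ : ∀ t ∈ H, Q.map (MulAut.conj t).toMonoidHom ≤ Q := by
    rintro t ht _ ⟨g, hg, rfl⟩
    exact h.hinv t ht g hg
  have hQ'inv : ∀ t ∈ H, ∀ g ∈ Q', t * g * t⁻¹ ∈ Q' := by
    intro t ht g hg
    have h1 : Q'.map (MulAut.conj t).toMonoidHom ≤ Q' := by
      rw [hQ', Subgroup.map_commutator]
      exact Subgroup.commutator_mono (hmapQ t ht) (hmapQ t ht)
    exact h1 ⟨g, hg, rfl⟩
  have hcQ' : ∀ g ∈ Q', c * g * c⁻¹ = g := h.min Q' hlt.le hlt.ne hQ'inv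
  -- the subgroup `D`
  let D : Subgroup X := H ⊓ Subgroup.centralizer (Q' : Set X)
  have hcD : c ∈ D := by
    refine Subgroup.mem_inf.mpr ⟨hcH, ?_⟩
    rw [Subgroup.mem_centralizer_iff]
    intro g hg
    have := hcQ' g hg
    calc g * c = (c * g * c⁻¹) * c := by rw [this]
      _ = c * g := by group
  have hDinv : ∀ t ∈ H, ∀ d ∈ D, t * d * t⁻¹ ∈ D := by
    intro t ht d hd
    obtain ⟨hd1, hd2⟩ := Subgroup.mem_inf.mp hd
    refine Subgroup.mem_inf.mpr ⟨mul_mem (mul_mem ht hd1) (inv_mem ht), ?_⟩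
    rw [Subgroup.mem_centralizer_iff]
    intro w hw
    have h1 : t⁻¹ * w * t⁻¹⁻¹ ∈ Q' := hQ'inv t⁻¹ (inv_mem ht) w hw
    have h2 := Subgroup.mem_centralizer_iff.mp hd2 _ h1
    have e1 : w * (t * d * t⁻¹) = t * ((t⁻¹ * w * t⁻¹⁻¹) * d) * t⁻¹ := by group
    have e2 : t * d * t⁻¹ * w = t * (d * (t⁻¹ * w * t⁻¹⁻¹)) * t⁻¹ := by group
    rw [e1, e2, h2]
  set Q₁ : Subgroup X := ⁅Q, D⁆ with hQ₁
  have hQ₁Q : Q₁ ≤ Q := by
    rw [hQ₁, Subgroup.commutator_le]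
    intro g hg d hd
    rw [commutatorElement_def]
    have e : g * d * g⁻¹ * d⁻¹ = g * (d * g⁻¹ * d⁻¹) := by group
    rw [e]
    exact mul_mem hg (h.hinv d (Subgroup.mem_inf.mp hd).1 _ (inv_mem hg))
  have hQ₁inv : ∀ t ∈ H, ∀ g ∈ Q₁, t * g * t⁻¹ ∈ Q₁ := by
    intro t ht g hg
    have h1 : Q₁.map (MulAut.conj t).toMonoidHom ≤ Q₁ := by
      rw [hQ₁, Subgroup.map_commutator]
      refine Subgroup.commutator_mono (hmapQ t ht) ?_
      rintro _ ⟨d, hd, rfl⟩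
      exact hDinv t ht d hd
    exact h1 ⟨g, hg, rfl⟩
  have hQ₁eq : Q₁ = Q := by
    by_contra hne
    have hfix := h.min Q₁ hQ₁Q hne hQ₁inv
    obtain ⟨g, hg, hg2⟩ := h.ne
    apply hg2
    have hz : c * g * c⁻¹ * g⁻¹ ∈ Q₁ := by
      have h1 : ⁅g, c⁆ ∈ Q₁ := Subgroup.commutator_mem_commutator hg hcD
      have h2 := inv_mem h1
      rw [commutatorElement_inv, commutatorElement_def] at h2
      exact h2
    have hzQ := hQ₁Q hz
    obtain ⟨e, he⟩ := Cfsg.Agent.Lib.Basic.SylowUtil.orderOf_eq_pow_of_isPGroup hQ hzQ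
    have hcop : (orderOf c).Coprime q := by
      obtain ⟨k, hk⟩ := Cfsg.Agent.Lib.Basic.SylowUtil.orderOf_eq_pow_of_isPGroup hH hcH
      rw [hk]
      exact Nat.Coprime.pow_left _ ((Nat.coprime_primes Fact.out Fact.out).mpr hpq.symm)
    refine eq_of_comm_fixed hcop (e := e) ?_ (hfix _ hz)
    rw [← he]
    exact pow_orderOf_eq_one _
  -- three subgroups
  have hbot : ⁅⁅Q, D⁆, Q'⁆ = ⊥ := by
    apply Subgroup.commutator_commutator_eq_bot_of_rotate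
    · have h1 : ⁅D, Q'⁆ = ⊥ := by
        rw [Subgroup.commutator_eq_bot_iff_le_centralizer]
        exact inf_le_right
      rw [h1, Subgroup.commutator_bot_left]
    · have h1 : ⁅Q', Q⁆ ≤ Q' := by
        rw [Subgroup.commutator_le]
        intro a ha b hb
        exact Subgroup.commutator_mem_commutator (hlt.le ha) hb
      rw [Subgroup.commutator_eq_bot_iff_le_centralizer]
      refine h1.trans ?_
      intro w hw
      rw [Subgroup.mem_centralizer_iff]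
      intro d hd
      exact (Subgroup.mem_centralizer_iff.mp (Subgroup.mem_inf.mp hd).2 w hw).symm
  rw [← hQ₁, hQ₁eq, Subgroup.commutator_eq_bot_iff_le_centralizer] at hbot
  intro u hu g hg w hw
  have h1 : u * g * u⁻¹ * g⁻¹ ∈ Q' := by
    have := Subgroup.commutator_mem_commutator hu hg
    rwa [commutatorElement_def] at this
  exact (Subgroup.mem_centralizer_iff.mp (hbot hw) _ h1)

section trivial

variable {Q R : Subgroup X} {y y' : X}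

/-- If `y` is trivial on `Q / R` then so is `[y, y']`. -/
theorem comm_trivial_left (hyQ : ∀ g ∈ Q, y * g * y⁻¹ ∈ Q) (hyQi : ∀ g ∈ Q, y⁻¹ * g * y ∈ Q)
    (hy'Qi : ∀ g ∈ Q, y'⁻¹ * g * y' ∈ Q) (hyR : ∀ r ∈ R, y * r * y⁻¹ ∈ R) (hy'R : ∀ r ∈ R, y' * r * y'⁻¹ ∈ R)
    (h : ∀ g ∈ Q, y * g * y⁻¹ * g⁻¹ ∈ R) : ∀ g ∈ Q, ⁅y, y'⁆ * g * ⁅y, y'⁆⁻¹ * g⁻¹ ∈ R := by
  intro g hg
  set g' := y'⁻¹ * g * y' with hg'
  have hg'Q : g' ∈ Q := hy'Qi g hg
  set k := y⁻¹ * g' * y with hk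
  have hkQ : k ∈ Q := hyQi _ hg'Q
  have h1 := h k hkQ
  have e1 : y * k * y⁻¹ = g' := by rw [hk]; group
  rw [e1] at h1
  have h2 : y' * (g' * k⁻¹)⁻¹ * y'⁻¹ ∈ R := hy'R _ (inv_mem h1)
  have h3 : y * (y' * (g' * k⁻¹)⁻¹ * y'⁻¹) * y⁻¹ ∈ R := hyR _ h2
  have h4 := h g hg
  have e2 : ⁅y, y'⁆ * g * ⁅y, y'⁆⁻¹ * g⁻¹ =
      (y * (y' * (g' * k⁻¹)⁻¹ * y'⁻¹) * y⁻¹) * (y * g * y⁻¹ * g⁻¹) := by
    rw [commutatorElement_def]
    simp only [hk, hg']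
    group
  rw [e2]
  exact mul_mem h3 h4

/-- The same for the inverse. -/
theorem trivial_inv {c : X} (hcQi : ∀ g ∈ Q, c⁻¹ * g * c ∈ Q) (h : ∀ g ∈ Q, c * g * c⁻¹ * g⁻¹ ∈ R) :
    ∀ g ∈ Q, c⁻¹ * g * c⁻¹⁻¹ * g⁻¹ ∈ R := by
  intro g hg
  have h1 := h _ (hcQi g hg)
  have h2 := inv_mem h1
  have e : (c * (c⁻¹ * g * c) * c⁻¹ * (c⁻¹ * g * c)⁻¹)⁻¹ = c⁻¹ * g * c⁻¹⁻¹ * g⁻¹ := by group
  rwa [e] at h2

end trivial

section levels

variable {K : Type*} [Field K] [CharP K p] {V : Type*} [AddCommGroup V] [Module K V]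

theorem pow_sub_one_div {c m : ℕ} (hc : c ≤ m) : (p ^ m - 1) / p ^ c = p ^ (m - c) - 1 := by
  obtain ⟨d, rfl⟩ : ∃ d, m = c + d := ⟨m - c, by omega⟩
  rw [Nat.add_sub_cancel_left]
  have hP : 1 ≤ p ^ c := Nat.one_le_pow _ _ hp.out.pos
  have hD : 1 ≤ p ^ d := Nat.one_le_pow _ _ hp.out.pos
  obtain ⟨E, hE⟩ : ∃ E, p ^ d = E + 1 := ⟨p ^ d - 1, by omega⟩
  rw [pow_add, hE, Nat.add_sub_cancel]
  apply Nat.div_eq_of_lt_le
  · have e : p ^ c * (E + 1) = E * p ^ c + p ^ c := by ring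
    rw [e]
    generalize E * p ^ c = A
    omega
  · have e : p ^ c * (E + 1) = (E + 1) * p ^ c := by ring
    rw [e]
    have h0 : 0 < (E + 1) * p ^ c := by positivity
    generalize (E + 1) * p ^ c = A at *
    omega

/-- The weight step for `(ρ a - 1) ^ (p ^ m - 1)`. -/
theorem exists_level_s (ρ : X →* End K V) {a : X} {m : ℕ} (ha : a ^ p ^ m = 1) {U : Submodule K V}
    (hUa : ∀ v ∈ U, ρ a v ∈ U) (hs : ∀ v ∈ U, ((ρ a - 1) ^ (p ^ m - 1)) v = 0) (N : Subgroup X)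
    (hN : a ∈ Subgroup.normalizer (N : Set X)) (lam : X → K) (hne : ∃ v ∈ U ⊓ wtSpace ρ N lam, v ≠ 0) :
    ∃ c, c < m ∧ a ^ p ^ c ∈ wtStab N lam ∧
      ∀ v ∈ U ⊓ wtSpace ρ N lam, ((ρ (a ^ p ^ c) - 1) ^ (p ^ (m - c) - 1)) v = 0 := by
  obtain ⟨c, hc, h1, -, h3⟩ := weight_step (p := p) ρ a ha N hN lam U hUa (p ^ m - 1) hs
  rw [pow_sub_one_div hc] at h3
  obtain ⟨v, hv, hv0⟩ := hne
  refine ⟨c, lt_of_le_of_ne hc ?_, h1, h3⟩
  rintro rfl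
  apply hv0
  have := h3 v hv
  simpa using this

/-- Two weight steps. -/
theorem exists_b (ρ : X →* End K V) {Q C₀ : Subgroup X} (hcentral : ∀ c ∈ C₀, ∀ g ∈ Q, c * g = g * c)
    {lam mu : X → K} {x : X} {a : ℕ} (hxo : orderOf x = p ^ a) (hQx : ∀ g ∈ Q, x * g * x⁻¹ ∈ Q)
    (hC₀x : x ∈ Subgroup.normalizer (C₀ : Set X)) (hs : (ρ x - 1) ^ (p ^ a - 1) = 0) {w : V}
    (hw : w ∈ wtSpace ρ C₀ lam ⊓ wtSpace ρ (centerOn ρ Q _ (wtSpace_inv hcentral (lam := lam))) mu)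
    (hw0 : w ≠ 0) :
    ∃ (n : ℕ) (b : X), 1 ≤ n ∧ orderOf b = p ^ n ∧ b ^ p ^ (n - 1) = x ^ p ^ (a - 1) ∧ b ∈ Subgroup.zpowers x ∧
      b ∈ Subgroup.normalizer ((centerOn ρ Q _ (wtSpace_inv hcentral (lam := lam)) : Subgroup X) : Set X) ∧
      (∀ v ∈ wtSpace ρ C₀ lam ⊓ wtSpace ρ (centerOn ρ Q _ (wtSpace_inv hcentral (lam := lam))) mu,
        ρ b v ∈ wtSpace ρ C₀ lam ⊓ wtSpace ρ (centerOn ρ Q _ (wtSpace_inv hcentral (lam := lam))) mu) ∧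
      ∀ v ∈ wtSpace ρ C₀ lam ⊓ wtSpace ρ (centerOn ρ Q _ (wtSpace_inv hcentral (lam := lam))) mu,
        ((ρ b - 1) ^ (p ^ n - 1)) v = 0 := by
  set U₁ := wtSpace ρ C₀ lam with hU₁
  have hU₁Q : ∀ g ∈ Q, ∀ v ∈ U₁, ρ g v ∈ U₁ := wtSpace_inv hcentral
  set R := centerOn ρ Q U₁ hU₁Q with hR
  obtain ⟨hwU₁, hwR⟩ := Submodule.mem_inf.mp hw
  have hapow : x ^ p ^ a = 1 := by
    rw [← hxo]; exact pow_orderOf_eq_one x
  obtain ⟨c₁, hc₁, hx₁, hs₁⟩ := exists_level_s (p := p) ρ hapow (U := ⊤) (fun _ _ => trivial)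
    (fun v _ => by rw [hs]; rfl) C₀ hC₀x lam ⟨w, ⟨trivial, hwU₁⟩, hw0⟩
  set x₁ := x ^ p ^ c₁ with hx₁def
  have hx₁U : ∀ v ∈ U₁, ρ x₁ v ∈ U₁ := stab_inv hx₁
  have hordx₁ : orderOf x₁ = p ^ (a - c₁) := orderOf_pow_pow hxo hc₁.le
  have hx₁pow : x₁ ^ p ^ (a - c₁) = 1 := by
    rw [← hordx₁]; exact pow_orderOf_eq_one _
  have hx₁R : x₁ ∈ Subgroup.normalizer (R : Set X) :=
    mem_normalizer_centerOn (fun g hg => conj_pow_mem hQx _ g hg) hx₁U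
  obtain ⟨c₂, hc₂, hx₂, hs₂⟩ := exists_level_s (p := p) ρ hx₁pow (U := U₁) hx₁U
    (fun v hv => hs₁ v (Submodule.mem_inf.mpr ⟨trivial, hv⟩)) R hx₁R mu ⟨w, hw, hw0⟩
  set x₂ := x₁ ^ p ^ c₂ with hx₂def
  have hx₂C : x₂ ∈ wtStab C₀ lam := pow_mem hx₁ _
  refine ⟨a - c₁ - c₂, x₂, by omega, orderOf_pow_pow hordx₁ hc₂.le, ?_, ?_, hx₂.1, ?_, hs₂⟩
  · rw [hx₂def, hx₁def, ← pow_mul, ← pow_mul, ← pow_add, ← pow_add]
    congr 2
    omega
  · exact pow_mem (pow_mem (Subgroup.mem_zpowers x) _) _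
  · intro v hv
    obtain ⟨hv1, hv2⟩ := Submodule.mem_inf.mp hv
    exact Submodule.mem_inf.mpr ⟨stab_inv hx₂C v hv1, stab_inv hx₂ v hv2⟩

end levels

section main

variable {K : Type*} [Field K] [CharP K p] [IsAlgClosed K] {V : Type*} [AddCommGroup V] [Module K V]
  [FiniteDimensional K V]

/-- The abelian case. -/
theorem abelian_step (ρ : X →* End K V) (hρ : Function.Injective ρ) {q : ℕ} [Fact q.Prime] (hpq : q ≠ p)
    {Q : Subgroup X} (hQ : IsPGroup q Q) (hQc : ∀ a ∈ Q, ∀ b ∈ Q, a * b = b * a) {x : X} {a : ℕ} (ha : 1 ≤ a)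
    (hxo : orderOf x = p ^ a) (hQx : ∀ g ∈ Q, x * g * x⁻¹ ∈ Q) (hs : (ρ x - 1) ^ (p ^ a - 1) = 0) :
    ∀ g ∈ Q, x ^ p ^ (a - 1) * g * (x ^ p ^ (a - 1))⁻¹ = g := by
  by_contra hcon
  push Not at hcon
  obtain ⟨Q₁, hQ₁Q, hmin⟩ := exists_isMinFor x (x ^ p ^ (a - 1)) Q hQx hcon
  have hN : 0 < p ^ a := pow_pos hp.out.pos a
  rcases main_of_min (p := p) hpq.symm ρ hρ x ha hxo Q₁ (hQ.to_le hQ₁Q) hmin (p ^ a - 1) hs with
    h1 | ⟨n₀, m, _, _, _, _, h5, _⟩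
  · omega
  · exact h5 fun s hs t ht => hQc s (hQ₁Q hs) t (hQ₁Q ht)

/-- The nonabelian case. -/
theorem nonabelian_step (hp2 : p ≠ 2) (ρ : X →* End K V) (hρ : Function.Injective ρ) {q : ℕ} [Fact q.Prime]
    (hpq : q ≠ p) {H Q C₀ : Subgroup X} (hH : IsPGroup p H) (hQ : IsPGroup q Q)
    (hHQ : ∀ h ∈ H, ∀ g ∈ Q, h * g * h⁻¹ ∈ Q) (hHC₀ : H ≤ Subgroup.normalizer (C₀ : Set X)) (hC₀Q : C₀ ≤ Q)
    (hcentral : ∀ c ∈ C₀, ∀ g ∈ Q, c * g = g * c) (hcomm : ∀ u ∈ Q, ∀ g ∈ Q, u * g * u⁻¹ * g⁻¹ ∈ C₀) {x x' : X}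
    (hx : x ∈ H) (hx' : x' ∈ H) {a : ℕ} (hxo : orderOf x = p ^ a) (hxo' : orderOf x' = p ^ a)
    (hs : (ρ x - 1) ^ (p ^ a - 1) = 0) (hs' : (ρ x' - 1) ^ (p ^ a - 1) = 0) {g₀ h₀ : X} (hg₀ : g₀ ∈ Q)
    (hh₀ : h₀ ∈ Q) {c z : X} (hc : c = ⁅x ^ p ^ (a - 1), x' ^ p ^ (a - 1)⁆) (hz : z = c * g₀ * c⁻¹ * g₀⁻¹)
    (hne : h₀ * z * h₀⁻¹ * z⁻¹ ≠ 1) : False := by
  classical
  set y := x ^ p ^ (a - 1) with hy
  set y' := x' ^ p ^ (a - 1) with hy'
  have hyH : y ∈ H := pow_mem hx _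
  have hy'H : y' ∈ H := pow_mem hx' _
  have hcH : c ∈ H := by
    rw [hc, commutatorElement_def]
    exact mul_mem (mul_mem (mul_mem hyH hy'H) (inv_mem hyH)) (inv_mem hy'H)
  have hzQ : z ∈ Q := by
    rw [hz]
    exact mul_mem (hHQ c hcH g₀ hg₀) (inv_mem hg₀)
  have hqK : (q : K) ≠ 0 := by
    intro h0
    have h1 := (CharP.cast_eq_zero_iff K p q).mp h0
    exact hpq ((Nat.prime_dvd_prime_iff_eq hp.out Fact.out).mp h1).symm
  have hQK : (Nat.card Q : K) ≠ 0 := card_ne_zero_of_pgroup hqK hQ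
  have hC₀K : (Nat.card C₀ : K) ≠ 0 := card_ne_zero_of_pgroup hqK (hQ.to_le hC₀Q)
  have hT : ρ (h₀ * z * h₀⁻¹ * z⁻¹) ≠ 1 := by
    intro h
    exact hne (hρ (by rw [h, map_one]))
  -- a weight of `C₀`
  have hC₀cm : ∀ y ∈ C₀, ∀ t ∈ C₀, ∀ w ∈ (⊤ : Submodule K V), ρ y (ρ t w) = ρ t (ρ y w) := by
    intro y hy t ht w _
    rw [← rho_mul, ← rho_mul, hcentral y hy t (hC₀Q ht)]
  obtain ⟨w₀, -, lam, hw₀, hw₀ne⟩ := exists_wt_of_ne (ρ := ρ) (K := C₀) hC₀K (U := ⊤)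
    (fun _ _ _ _ => trivial) hC₀cm (ρ (h₀ * z * h₀⁻¹ * z⁻¹)) (by
      intro h
      apply hT
      ext w
      exact h w trivial)
  have hw₀0 : w₀ ≠ 0 := by
    rintro rfl
    simp at hw₀ne
  set U₁ := wtSpace ρ C₀ lam with hU₁
  have hU₁Q : ∀ g ∈ Q, ∀ v ∈ U₁, ρ g v ∈ U₁ := wtSpace_inv hcentral
  set R := centerOn ρ Q U₁ hU₁Q with hR
  have hw₀U₁ : w₀ ∈ U₁ := hw₀
  have hRQ : R ≤ Q := fun r hr => hr.1
  have hC₀R : C₀ ≤ R := le_centerOn hC₀Q hcentral hU₁Q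
  have hcommR : ∀ u ∈ Q, ∀ g ∈ Q, u * g * u⁻¹ * g⁻¹ ∈ R := fun u hu g hg => hC₀R (hcomm u hu g hg)
  have hRK : (Nat.card R : K) ≠ 0 := card_ne_zero_of_pgroup hqK (hQ.to_le hRQ)
  -- `z` moves `U₁`
  have hzR : z ∉ R := by
    intro hzR
    have hmem := hcomm h₀ hh₀ z hzQ
    have ht : ∀ v ∈ U₁, ρ (h₀ * z * h₀⁻¹ * z⁻¹) v = lam (h₀ * z * h₀⁻¹ * z⁻¹) • v := fun v hv => hv _ hmem
    set t := lam (h₀ * z * h₀⁻¹ * z⁻¹) with htdef
    have hpw : PW ρ U₁ t h₀ z := pw_of_scal (fun v hv => hU₁Q _ (mul_mem hzQ hh₀) v hv) ht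
    have h1 := hpw w₀ hw₀U₁
    have h2 := hzR.2 h₀ hh₀ w₀ hw₀U₁
    rw [← h2] at h1
    have h3 : (1 - t) • ρ z (ρ h₀ w₀) = 0 := by
      rw [sub_smul, one_smul, ← h1, sub_self]
    have h4 : ρ z (ρ h₀ w₀) ≠ 0 := by
      intro h5
      have h6 := rho_inv_mul ρ z (ρ h₀ w₀)
      rw [h5, map_zero] at h6
      have h7 := rho_inv_mul ρ h₀ w₀
      rw [← h6, map_zero] at h7
      exact hw₀0 h7.symm
    have h5 : t = 1 := (sub_eq_zero.mp ((smul_eq_zero.mp h3).resolve_right h4)).symm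
    apply hw₀ne
    rw [ht w₀ hw₀U₁, h5, one_smul]
  -- a weight of `R`
  have hRst : ∀ y ∈ R, ∀ w ∈ U₁, ρ y w ∈ U₁ := fun y hy => hU₁Q y hy.1
  have hRcm : ∀ y ∈ R, ∀ z ∈ R, ∀ w ∈ U₁, ρ y (ρ z w) = ρ z (ρ y w) :=
    fun y hy z hz w hw => hy.2 z hz.1 w hw
  have hnot0 : ¬ ∀ w ∈ U₁, (0 : End K V) w = w := by
    intro h
    apply hw₀0
    exact (h w₀ hw₀U₁).symm
  obtain ⟨w₁, hw₁U, mu, hw₁mu, hw₁ne⟩ :=
    exists_wt_of_ne (ρ := ρ) (K := R) hRK (U := U₁) hRst hRcm (0 : End K V) hnot0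
  have hw₁0 : w₁ ≠ 0 := fun h => hw₁ne (by simp [h])
  set U₂ := U₁ ⊓ wtSpace ρ R mu with hU₂
  have hw₁U₂ : w₁ ∈ U₂ := Submodule.mem_inf.mpr ⟨hw₁U, hw₁mu⟩
  have hData : Data ρ Q R U₂ := data_of_weights hC₀Q hcentral hcomm hw₁U₂ hw₁0
  have hU₂0 : U₂ ≠ ⊥ := by
    intro h
    rw [h] at hw₁U₂
    exact hw₁0 (by simpa using hw₁U₂)
  -- the two elements
  obtain ⟨n, b, hn, hbo, hby, hbz, hbR, hbU, hbs⟩ :=
    exists_b (p := p) ρ hcentral hxo (hHQ x hx) (hHC₀ hx) hs hw₁U₂ hw₁0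
  obtain ⟨n', b', hn', hbo', hby', hbz', hbR', hbU', hbs'⟩ :=
    exists_b (p := p) ρ hcentral hxo' (hHQ x' hx') (hHC₀ hx') hs' hw₁U₂ hw₁0
  replace hby : b ^ p ^ (n - 1) = y := hby
  replace hby' : b' ^ p ^ (n' - 1) = y' := hby'
  have hbH : b ∈ H := (Subgroup.zpowers_le.mpr hx) hbz
  have hbH' : b' ∈ H := (Subgroup.zpowers_le.mpr hx') hbz'
  have hyN : y ∈ Subgroup.normalizer (R : Set X) := by
    rw [← hby]
    exact pow_mem hbR _
  have hy'N : y' ∈ Subgroup.normalizer (R : Set X) := by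
    rw [← hby']
    exact pow_mem hbR' _
  have hyR : ∀ r ∈ R, y * r * y⁻¹ ∈ R := fun r hr => (Subgroup.mem_normalizer_iff.mp hyN r).mp hr
  have hy'R : ∀ r ∈ R, y' * r * y'⁻¹ ∈ R := fun r hr => (Subgroup.mem_normalizer_iff.mp hy'N r).mp hr
  have hQi : ∀ t ∈ H, ∀ g ∈ Q, t⁻¹ * g * t ∈ Q := by
    intro t ht g hg
    have := hHQ t⁻¹ (inv_mem ht) g hg
    rwa [inv_inv] at this
  have hzR' : ¬ ∀ g ∈ Q, c * g * c⁻¹ * g⁻¹ ∈ R := by
    intro h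
    apply hzR
    rw [hz]
    exact h g₀ hg₀
  have hne1 : ∃ g ∈ Q, y * g * y⁻¹ * g⁻¹ ∉ R := by
    by_contra hcon
    push Not at hcon
    apply hzR'
    rw [hc]
    exact comm_trivial_left (hHQ y hyH) (hQi y hyH) (hQi y' hy'H) hyR hy'R hcon
  have hne2 : ∃ g ∈ Q, y' * g * y'⁻¹ * g⁻¹ ∉ R := by
    by_contra hcon
    push Not at hcon
    apply hzR'
    have h1 := comm_trivial_left (hHQ y' hy'H) (hQi y' hy'H) (hQi y hyH) hy'R hyR hcon
    have hH1 : ⁅y', y⁆ ∈ H := by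
      rw [commutatorElement_def]
      exact mul_mem (mul_mem (mul_mem hy'H hyH) (inv_mem hy'H)) (inv_mem hyH)
    have h2 := trivial_inv (hQi _ hH1) h1
    rw [commutatorElement_inv] at h2
    rw [hc]
    exact h2
  obtain ⟨m, hm, hD, hA⟩ := type_odd (p := p) ρ b hn hbo hpq hQ hQK (hHQ b hbH) hU₂0 hbU hData
    (fun g _ => (Subgroup.mem_normalizer_iff.mp hbR g).symm) hbs hby.symm hne1
  obtain ⟨m', hm', hD', hA'⟩ := type_odd (p := p) ρ b' hn' hbo' hpq hQ hQK (hHQ b' hbH') hU₂0 hbU' hData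
    (fun g _ => (Subgroup.mem_normalizer_iff.mp hbR' g).symm) hbs' hby'.symm hne2
  have hres := last_comm_section (p := p) (q := q) hp2 hpq hRQ hQ hcommR
    (H := H ⊓ Subgroup.normalizer (R : Set X)) (hH.to_le inf_le_left)
    (fun h hh g hg => hHQ h (Subgroup.mem_inf.mp hh).1 g hg)
    (fun h hh g _ => (Subgroup.mem_normalizer_iff.mp (Subgroup.mem_inf.mp hh).2 g).symm)
    (b := b) (b' := b') (Subgroup.mem_inf.mpr ⟨hbH, hbR⟩) (Subgroup.mem_inf.mpr ⟨hbH', hbR'⟩)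
    (by rw [← hbo]; exact pow_orderOf_eq_one b) (by rw [← hbo']; exact pow_orderOf_eq_one b')
    hn hn' hm hm' hD hD' (by rw [hby]; exact hA) (by rw [hby']; exact hA')
  rw [hby, hby'] at hres
  apply hzR'
  rw [hc]
  exact hres

/-- **Last powers commute.** -/
theorem key_prop (hp2 : p ≠ 2) (ρ : X →* End K V) (hρ : Function.Injective ρ) (hsol : IsPSolvable p X)
    (hOp : pCore p X = ⊥) {H : Subgroup X} (hH : IsPGroup p H) {x x' : X} (hx : x ∈ H) (hx' : x' ∈ H) {a : ℕ}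
    (ha : 1 ≤ a) (hxa : x ^ p ^ a = 1) (hxa' : x' ^ p ^ a = 1) (hs : (ρ x - 1) ^ (p ^ a - 1) = 0)
    (hs' : (ρ x' - 1) ^ (p ^ a - 1) = 0) :
    x ^ p ^ (a - 1) * x' ^ p ^ (a - 1) = x' ^ p ^ (a - 1) * x ^ p ^ (a - 1) := by
  classical
  by_contra hcon
  set y := x ^ p ^ (a - 1) with hy
  set y' := x' ^ p ^ (a - 1) with hy'
  set c := ⁅y, y'⁆ with hc
  have hc1 : c ≠ 1 := by
    intro h
    apply hcon
    rwa [hc, commutatorElement_eq_one_iff_mul_comm] at h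
  have hy1 : y ≠ 1 := by
    intro h
    apply hcon
    rw [h]
    simp
  have hy'1 : y' ≠ 1 := by
    intro h
    apply hcon
    rw [h]
    simp
  obtain ⟨a₀, rfl⟩ : ∃ a₀, a = a₀ + 1 := ⟨a - 1, by omega⟩
  have hxo : orderOf x = p ^ (a₀ + 1) := orderOf_eq_prime_pow hy1 hxa
  have hxo' : orderOf x' = p ^ (a₀ + 1) := orderOf_eq_prime_pow hy'1 hxa'
  have hyH : y ∈ H := pow_mem hx _
  have hy'H : y' ∈ H := pow_mem hx' _
  have hcH : c ∈ H := by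
    rw [hc, commutatorElement_def]
    exact mul_mem (mul_mem (mul_mem hyH hy'H) (inv_mem hyH)) (inv_mem hy'H)
  obtain ⟨q, hq, S, hpq, hS, hSinv, hSne⟩ := exists_invariant_q_subgroup_H hsol hOp hH hcH hc1
  obtain ⟨Q, hQS, hmin⟩ := exists_isMinInv H S c hSinv hSne
  have hQ : IsPGroup q Q := hS.to_le hQS
  have hQi : ∀ t ∈ H, ∀ g ∈ Q, t⁻¹ * g * t ∈ Q := by
    intro t ht g hg
    have := hmin.hinv t⁻¹ (inv_mem ht) g hg
    rwa [inv_inv] at this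
  by_cases hQc : ∀ a ∈ Q, ∀ b ∈ Q, a * b = b * a
  · -- abelian
    have hyfix := abelian_step (p := p) ρ hρ hpq.symm hQ hQc (a := a₀ + 1) (by omega) hxo (hmin.hinv x hx) hs
    obtain ⟨g, hg, hg2⟩ := hmin.ne
    apply hg2
    have h1 := comm_trivial_left (R := ⊥) (hmin.hinv y hyH) (hQi y hyH) (hQi y' hy'H)
      (fun r hr => by
        rw [Subgroup.mem_bot] at hr ⊢
        rw [hr]
        group)
      (fun r hr => by
        rw [Subgroup.mem_bot] at hr ⊢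
        rw [hr]
        group)
      (fun g hg => by
        have := hyfix g hg
        rw [Subgroup.mem_bot, mul_inv_eq_one]
        exact this) g hg
    rw [Subgroup.mem_bot, mul_inv_eq_one] at h1
    exact h1
  · -- nonabelian
    let C₀ : Subgroup X := Q ⊓ Subgroup.centralizer (Q : Set X)
    have hC₀Q : C₀ ≤ Q := inf_le_left
    have hcentral : ∀ t ∈ C₀, ∀ g ∈ Q, t * g = g * t := by
      intro t ht g hg
      exact (Subgroup.mem_centralizer_iff.mp (Subgroup.mem_inf.mp ht).2 g hg).symm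
    have hC₀inv : ∀ t ∈ H, ∀ g ∈ C₀, t * g * t⁻¹ ∈ C₀ := by
      intro t ht g hg
      refine Subgroup.mem_inf.mpr ⟨hmin.hinv t ht g (hC₀Q hg), ?_⟩
      rw [Subgroup.mem_centralizer_iff]
      intro w hw
      have h1 := hcentral g hg _ (hQi t ht w hw)
      have e1 : t * g * t⁻¹ * w = t * (g * (t⁻¹ * w * t)) * t⁻¹ := by group
      have e2 : w * (t * g * t⁻¹) = t * ((t⁻¹ * w * t) * g) * t⁻¹ := by group
      rw [e1, e2, h1]
    have hC₀ne : C₀ ≠ Q := by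
      intro h
      apply hQc
      intro s hs t ht
      have h1 : s ∈ C₀ := by rw [h]; exact hs
      exact hcentral s h1 t ht
    have hcC₀ := hmin.min C₀ hC₀Q hC₀ne hC₀inv
    have hcomm : ∀ u ∈ Q, ∀ g ∈ Q, u * g * u⁻¹ * g⁻¹ ∈ C₀ := by
      intro u hu g hg
      refine Subgroup.mem_inf.mpr ⟨mul_mem (mul_mem (mul_mem hu hg) (inv_mem hu)) (inv_mem hg), ?_⟩
      rw [Subgroup.mem_centralizer_iff]
      intro w hw
      exact (comm_central hmin hpq.symm hH hQ hcH u hu g hg w hw).symm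
    have hcop : (orderOf c).Coprime q := by
      obtain ⟨k, hk⟩ := Cfsg.Agent.Lib.Basic.SylowUtil.orderOf_eq_pow_of_isPGroup hH hcH
      rw [hk]
      exact Nat.Coprime.pow_left _ ((Nat.coprime_primes hp.out hq.out).mpr hpq)
    obtain ⟨g₀, hg₀, hg₀z⟩ : ∃ g₀ ∈ Q, c * g₀ * c⁻¹ * g₀⁻¹ ∉ C₀ := by
      by_contra hcon2
      push Not at hcon2
      obtain ⟨g, hg, hg2⟩ := hmin.ne
      apply hg2
      have hz := hcon2 g hg
      obtain ⟨e, he⟩ := Cfsg.Agent.Lib.Basic.SylowUtil.orderOf_eq_pow_of_isPGroup hQ (hC₀Q hz)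
      refine eq_of_comm_fixed hcop (e := e) ?_ (hcC₀ _ hz)
      rw [← he]
      exact pow_orderOf_eq_one _
    have hzQ : c * g₀ * c⁻¹ * g₀⁻¹ ∈ Q := mul_mem (hmin.hinv c hcH g₀ hg₀) (inv_mem hg₀)
    obtain ⟨h₀, hh₀, hne⟩ : ∃ h₀ ∈ Q, h₀ * (c * g₀ * c⁻¹ * g₀⁻¹) * h₀⁻¹ * (c * g₀ * c⁻¹ * g₀⁻¹)⁻¹ ≠ 1 := by
      by_contra hcon2
      push Not at hcon2
      apply hg₀z
      refine Subgroup.mem_inf.mpr ⟨hzQ, ?_⟩
      rw [Subgroup.mem_centralizer_iff]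
      intro w hw
      have h1 := hcon2 w hw
      rw [mul_inv_eq_one] at h1
      calc w * (c * g₀ * c⁻¹ * g₀⁻¹) = (w * (c * g₀ * c⁻¹ * g₀⁻¹) * w⁻¹) * w := by group
        _ = _ := by rw [h1]
    exact nonabelian_step (p := p) hp2 ρ hρ hpq.symm hH hQ hmin.hinv
      (Cfsg.Agent.Lib.Coprime.InvSylow.le_normalizer_of_forall_conj_mem hC₀inv) hC₀Q hcentral hcomm hx hx' hxo hxo'
      hs hs' hg₀ hh₀ hc rfl hne

end main

end Cfsg.Agent.Lib.LastPow.Key
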