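import Mathlib
import Cfsg.Agent.Lib.LastPow.Key
import Cfsg.Agent.Lib.HallHigman.Layer

/-!
# `p`-length at most `2 e`, `p` odd

If all `p`-elements of the `p`-soluble group `G` have order dividing `p ^ (e + 1)`, `p` odd, then after two
layers all `p`-elements have order dividing `p ^ e`.
-/

set_option autoImplicit false
set_option linter.unusedSectionVars false
set_option linter.style.haveILetI false

namespace Cfsg.Agent.Lib.LastPow.Main

open Cfsg Cfsg.Agent.Lib.Solvable.PSeries Cfsg.Agent.Lib.Solvable.PSeries2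
  Cfsg.Agent.Lib.Solvable.PSeries3 Cfsg.Agent.Lib.Basic.PCore
open Cfsg.Agent.Lib.HallHigman.Layer Cfsg.Agent.Lib.HallHigman.Block
open Module (End)

universe u

variable {G : Type u} [Group G] [Finite G] {p : ℕ} [hp : Fact p.Prime]

/-- Last powers commute, over any field of characteristic `p`. -/
theorem key_prop_field {F : Type*} [Field F] [CharP F p] {V : Type*} [AddCommGroup V] [Module F V]
    [FiniteDimensional F V] (hp2 : p ≠ 2) (ρ : G →* End F V) (hρ : Function.Injective ρ)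
    (hsol : IsPSolvable p G) (hOp : pCore p G = ⊥) {H : Subgroup G} (hH : IsPGroup p H) {x x' : G} (hx : x ∈ H)
    (hx' : x' ∈ H) {a : ℕ} (ha : 1 ≤ a) (hxa : x ^ p ^ a = 1) (hxa' : x' ^ p ^ a = 1)
    (hs : (ρ x - 1) ^ (p ^ a - 1) = 0) (hs' : (ρ x' - 1) ^ (p ^ a - 1) = 0) :
    x ^ p ^ (a - 1) * x' ^ p ^ (a - 1) = x' ^ p ^ (a - 1) * x ^ p ^ (a - 1) := by
  classical
  haveI : CharP (AlgebraicClosure F) p := inferInstance
  let K := AlgebraicClosure F
  let W := TensorProduct F K V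
  let ρ' : G →* End K W := ((Module.End.baseChangeHom F K V).toMonoidHom).comp ρ
  have hρ' : Function.Injective ρ' := by
    intro a b hab
    apply hρ
    exact LinearMap.baseChangeHom_injective F V K hab
  have hs₁ : ∀ (y : G) (s : ℕ), (ρ y - 1) ^ s = 0 → (ρ' y - 1) ^ s = 0 := by
    intro y s h
    have e : ρ' y - 1 = Module.End.baseChangeHom F K V (ρ y - 1) := by
      rw [map_sub, map_one]
      rfl
    rw [e, ← map_pow, h, map_zero]
  exact Cfsg.Agent.Lib.LastPow.Key.key_prop (K := K) (p := p) hp2 ρ' hρ' hsol hOp hH hx hx' ha hxa hxa'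
    (hs₁ _ _ hs) (hs₁ _ _ hs')

/-- The gain, for all the `p`-elements of the quotient. -/
theorem gain_of_exp {V : Type*} [AddCommGroup V] [Module (ZMod p) V]
    (ρ : G ⧸ pCore p G →* End (ZMod p) V) (π : pCore p G →* Multiplicative V)
    (hπ : Function.Surjective π)
    (hact : ∀ (g : G) (u : pCore p G),
        Multiplicative.toAdd (π (MulAut.conjNormal g u)) =
          ρ (g : G ⧸ pCore p G) (Multiplicative.toAdd (π u)))
    (a : ℕ) (hexp : ∀ x : G, (∃ k, x ^ p ^ k = 1) → x ^ p ^ a = 1) (x : G ⧸ pCore p G) (k : ℕ) (hk : x ^ p ^ k = 1) :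
    x ^ p ^ a = 1 ∧ (ρ x - 1) ^ (p ^ a - 1) = 0 := by
  classical
  have hPn : (pCore p G).Normal := pCore_normal p G
  have hPp : IsPGroup p (pCore p G) := pCore_isPGroup p
  obtain ⟨g', rfl⟩ := QuotientGroup.mk_surjective x
  -- all lifts are `p`-elements
  have hlift : ∀ h : G, (h : G ⧸ pCore p G) = (g' : G ⧸ pCore p G) ∨
      (h : G ⧸ pCore p G) = ((g'⁻¹ : G) : G ⧸ pCore p G) → h ^ p ^ a = 1 := by
    intro h hh
    apply hexp
    have h1 : ((h ^ p ^ k : G) : G ⧸ pCore p G) = 1 := by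
      rw [QuotientGroup.mk_pow]
      rcases hh with hh | hh
      · rw [hh, hk]
      · rw [hh, QuotientGroup.mk_inv, inv_pow, hk, inv_one]
    have h2 : h ^ p ^ k ∈ pCore p G := (QuotientGroup.eq_one_iff _).1 h1
    obtain ⟨j, hj⟩ := hPp ⟨_, h2⟩
    refine ⟨k + j, ?_⟩
    have h3 : (h ^ p ^ k) ^ p ^ j = 1 := by
      have := congrArg Subtype.val hj
      simpa using this
    rw [pow_add, pow_mul, h3]
  have hg : ∀ u ∈ pCore p G, (g'⁻¹ * u) ^ (p ^ a) = 1 := by
    intro u hu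
    apply hlift
    right
    rw [QuotientGroup.mk_mul]
    have : ((u : G) : G ⧸ pCore p G) = 1 := (QuotientGroup.eq_one_iff _).2 hu
    rw [this, mul_one]
  have hs := gain_lemma ρ π hπ hact g'⁻¹ a hg
  rw [inv_inv] at hs
  refine ⟨?_, hs⟩
  rw [← QuotientGroup.mk_pow, hlift g' (Or.inl rfl)]
  rfl

/-- Last powers commute in `G / O_p(G)`. -/
theorem last_pow_comm_B (hp2 : p ≠ 2) (hsol : IsPSolvable p G) (hcore : pPrimeCore p G = ⊥) {a : ℕ} (ha : 1 ≤ a)
    (hexp : ∀ x : G, (∃ k, x ^ p ^ k = 1) → x ^ p ^ a = 1) {H : Subgroup (G ⧸ pCore p G)} (hH : IsPGroup p H)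
    {x x' : G ⧸ pCore p G} (hx : x ∈ H) (hx' : x' ∈ H) :
    x ^ p ^ (a - 1) * x' ^ p ^ (a - 1) = x' ^ p ^ (a - 1) * x ^ p ^ (a - 1) := by
  classical
  obtain ⟨V, _, _, hfinV, ρ, π, hπ, hρ, hact⟩ := exists_layer hsol hcore
  haveI : Module.Finite (ZMod p) V := Module.Finite.of_finite
  have hsolB := isPSolvable_quotient hsol (pCore p G)
  have hpel : ∀ w ∈ H, ∃ k, w ^ p ^ k = 1 := by
    intro w hw
    obtain ⟨k, hk⟩ := hH ⟨w, hw⟩
    refine ⟨k, ?_⟩
    have := congrArg Subtype.val hk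
    simpa using this
  obtain ⟨k, hk⟩ := hpel x hx
  obtain ⟨k', hk'⟩ := hpel x' hx'
  obtain ⟨hxa, hs⟩ := gain_of_exp ρ π hπ hact a hexp x k hk
  obtain ⟨hxa', hs'⟩ := gain_of_exp ρ π hπ hact a hexp x' k' hk'
  exact key_prop_field (p := p) hp2 ρ hρ hsolB pCore_quotient_eq_bot hH hx hx' ha hxa hxa' hs hs'

/-- A `p`-subgroup of a quotient is covered by a `p`-subgroup. -/
theorem exists_sylow_lift {B A : Type*} [Group B] [Finite B] [Group A] [Finite A] {f : B →* A}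
    (hf : Function.Surjective f) {H₁ : Subgroup A} (hH₁ : IsPGroup p H₁) :
    ∃ P : Subgroup B, IsPGroup p P ∧ ∀ y ∈ H₁, ∃ x ∈ P, f x = y := by
  classical
  obtain ⟨S₁, hS₁⟩ := hH₁.exists_le_sylow
  obtain ⟨P₀⟩ : Nonempty (Sylow p B) := inferInstance
  obtain ⟨c, hc⟩ := MulAction.exists_smul_eq A (P₀.mapSurjective hf) S₁
  obtain ⟨c', rfl⟩ := hf c
  refine ⟨(P₀ : Subgroup B).map (MulAut.conj c').toMonoidHom, P₀.isPGroup'.map _, ?_⟩
  intro y hy
  have hy' := hS₁ hy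
  rw [← hc, Sylow.coe_subgroup_smul, Subgroup.mem_smul_pointwise_iff_exists] at hy'
  obtain ⟨t, ht, rfl⟩ := hy'
  rw [Sylow.coe_mapSurjective] at ht
  obtain ⟨b, hb, rfl⟩ := ht
  refine ⟨c' * b * c'⁻¹, ⟨b, hb, rfl⟩, ?_⟩
  simp [map_mul, map_inv]

/-- A nonzero vector gives elements whose `p ^ e`-th powers do not commute. -/
theorem exists_noncomm {V : Type*} [AddCommGroup V] [Module (ZMod p) V]
    (ρ : G ⧸ pCore p G →* End (ZMod p) V) (π : pCore p G →* Multiplicative V)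
    (hπ : Function.Surjective π)
    (hact : ∀ (g : G) (u : pCore p G),
        Multiplicative.toAdd (π (MulAut.conjNormal g u)) =
          ρ (g : G ⧸ pCore p G) (Multiplicative.toAdd (π u)))
    (g : G) (e : ℕ) (v : V) (hv : ((ρ ((g⁻¹ : G) : G ⧸ pCore p G) - 1) ^ (2 * p ^ e - 1)) v ≠ 0) :
    ∃ u ∈ pCore p G, g ^ p ^ e * (g * u) ^ p ^ e ≠ (g * u) ^ p ^ e * g ^ p ^ e := by
  classical
  have hPn : (pCore p G).Normal := pCore_normal p G
  set T := ρ ((g⁻¹ : G) : G ⧸ pCore p G) with hT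
  obtain ⟨u, hu⟩ := hπ (Multiplicative.ofAdd v)
  have hv' : v = Multiplicative.toAdd (π u) := by rw [hu]; rfl
  -- the cocycle
  have key : ∀ k : ℕ, ∃ c : pCore p G, (g * (u : G)) ^ k = g ^ k * (c : G) ∧
      Multiplicative.toAdd (π c) = ∑ i ∈ Finset.range k, (T ^ i) v := by
    intro k
    induction k with
    | zero =>
      refine ⟨1, by simp, ?_⟩
      simp
    | succ k ih =>
      obtain ⟨c, hc1, hc2⟩ := ih
      refine ⟨MulAut.conjNormal g⁻¹ c * u, ?_, ?_⟩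
      · rw [pow_succ, hc1, pow_succ]
        simp [MulAut.conjNormal_apply]
        group
      · rw [map_mul, toAdd_mul, hact, hc2, Finset.sum_range_succ', map_sum, add_comm]
        simp only [pow_succ', pow_zero, Module.End.one_apply, Module.End.mul_apply]
        rw [add_comm, ← hv']
  obtain ⟨c, hc1, hc2⟩ := key (p ^ e)
  refine ⟨u, u.2, ?_⟩
  intro hcomm
  rw [hc1] at hcomm
  set k := p ^ e with hk
  have h1 : g ^ k * (c : G) = c * g ^ k := by
    have e1 : g ^ k * c * g ^ k = g ^ k * (c * g ^ k) := mul_assoc _ _ _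
    rw [e1] at hcomm
    exact mul_left_cancel hcomm
  have h2 : MulAut.conjNormal (g ^ k) c = c := by
    apply Subtype.ext
    rw [MulAut.conjNormal_apply, h1]
    group
  have h3 := hact (g ^ k) c
  rw [h2] at h3
  set w := Multiplicative.toAdd (π c) with hw
  have hTk : T ^ k * ρ ((g ^ k : G) : G ⧸ pCore p G) = 1 := by
    rw [hT, ← map_pow, ← map_mul, ← QuotientGroup.mk_pow, ← QuotientGroup.mk_mul, inv_pow, inv_mul_cancel]
    exact map_one ρ
  have h4 : (T ^ k) w = w := by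
    have e1 := congrArg (fun f : End (ZMod p) V => f w) hTk
    simp only [Module.End.mul_apply, Module.End.one_apply] at e1
    rw [← h3] at e1
    exact e1
  have h5 : ((T - 1) ^ k) w = 0 := by
    rw [hk, sub_one_pow_char_pow (p := p), ← hk, LinearMap.sub_apply, h4, Module.End.one_apply, sub_self]
  have h6 : w = ((T - 1) ^ (k - 1)) v := by
    rw [hc2, hk, sub_one_pow_eq_sum (p := p), LinearMap.sum_apply]
  apply hv
  have hk1 : 1 ≤ k := Nat.one_le_pow _ _ hp.out.pos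
  have e2 : 2 * k - 1 = k + (k - 1) := by omega
  rw [e2, pow_add, Module.End.mul_apply, ← h6, h5]

/-- **The exponent drops after two layers.** -/
theorem exp_drop_two (hp2 : p ≠ 2) (hsol : IsPSolvable p G) (hcore : pPrimeCore p G = ⊥) (e : ℕ)
    (hexp : ∀ x : G, (∃ k, x ^ p ^ k = 1) → x ^ p ^ (e + 1) = 1)
    (z : ((G ⧸ pCore p G) ⧸ pPrimeCore p (G ⧸ pCore p G)) ⧸
      pCore p ((G ⧸ pCore p G) ⧸ pPrimeCore p (G ⧸ pCore p G))) (k : ℕ) (hk : z ^ p ^ k = 1) :
    z ^ p ^ e = 1 := by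
  classical
  by_contra hz
  have hsolB := isPSolvable_quotient hsol (pCore p G)
  have hsolA := isPSolvable_quotient hsolB (pPrimeCore p (G ⧸ pCore p G))
  have hcoreA := pPrimeCore_quotient (G := G ⧸ pCore p G) p
  -- exponents
  have hexpB : ∀ x : G ⧸ pCore p G, (∃ k, x ^ p ^ k = 1) → x ^ p ^ (e + 1) = 1 := by
    obtain ⟨V, _, _, hfinV, ρ, π, hπ, hρ, hact⟩ := exists_layer hsol hcore
    rintro x ⟨k, hk⟩
    exact (gain_of_exp ρ π hπ hact (e + 1) hexp x k hk).1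
  have hexpA : ∀ y : (G ⧸ pCore p G) ⧸ pPrimeCore p (G ⧸ pCore p G), (∃ k, y ^ p ^ k = 1) → y ^ p ^ (e + 1) = 1 := by
    rintro y ⟨k, hk⟩
    obtain ⟨x, rfl, hx⟩ := exists_pow_lift _ (pPrimeCore_coprime p) y k hk
    rw [← QuotientGroup.mk_pow, hexpB x ⟨k, hx⟩]
    rfl
  obtain ⟨V, _, _, hfinV, ρ, π, hπ, hρ, hact⟩ := exists_layer hsolA hcoreA
  obtain ⟨hza, hzs⟩ := gain_of_exp ρ π hπ hact (e + 1) hexpA z k hk
  have hzo : orderOf z = p ^ (e + 1) := orderOf_eq_prime_pow hz hza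
  haveI : Nontrivial V := by
    rcases subsingleton_or_nontrivial V with hV | hV
    · exfalso
      have : Subsingleton (End (ZMod p) V) := inferInstance
      have h1 : ρ (z ^ p ^ e) = ρ 1 := Subsingleton.elim _ _
      exact hz (hρ h1)
    · exact hV
  haveI : Module.Finite (ZMod p) V := Module.Finite.of_finite
  have hp3 : 3 ≤ p := by
    have := hp.out.two_le
    omega
  have hX : 1 ≤ p ^ e := Nat.one_le_pow _ _ hp.out.pos
  have h3X : 3 * p ^ e ≤ p ^ (e + 1) := by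
    rw [pow_succ, mul_comm 3]
    exact Nat.mul_le_mul_left _ hp3
  -- the rank of `ρ z - 1`
  have hne : (ρ z - 1) ^ (2 * p ^ e - 1) ≠ 0 := by
    intro h
    rcases theorem_b_field (p := p) ρ hρ (isPSolvable_quotient hsolA _) pCore_quotient_eq_bot z (e + 1) hzo _ h with
      h1 | ⟨n₀, q, m, h1, h2, h3, h4, h5, h6, h7⟩
    · omega
    · have hB : 1 ≤ p ^ n₀ := Nat.one_le_pow _ _ hp.out.pos
      have hAle : p ^ (e + 1 - n₀) ≤ p ^ e := Nat.pow_le_pow_right hp.out.pos (by omega)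
      have hAB : p ^ (e + 1 - n₀) * p ^ n₀ = p ^ (e + 1) := by
        rw [← pow_add]
        congr 1
        omega
      obtain ⟨C, hC⟩ : ∃ C, p ^ n₀ = C + 1 := ⟨p ^ n₀ - 1, by omega⟩
      rw [hC] at hAB h7
      simp only [Nat.add_sub_cancel] at h7
      have e1 : p ^ (e + 1 - n₀) * (C + 1) = p ^ (e + 1 - n₀) * C + p ^ (e + 1 - n₀) := by ring
      rw [e1] at hAB
      generalize p ^ (e + 1 - n₀) * C = D at *
      omega
  obtain ⟨v, hv⟩ : ∃ v, ((ρ z - 1) ^ (2 * p ^ e - 1)) v ≠ 0 := by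
    by_contra hcon
    push Not at hcon
    apply hne
    ext v
    exact hcon v
  obtain ⟨g', rfl⟩ := QuotientGroup.mk_surjective z
  obtain ⟨u, hu, hnc⟩ := exists_noncomm ρ π hπ hact g'⁻¹ e v (by rw [inv_inv]; exact hv)
  have hPp := pCore_isPGroup (G := (G ⧸ pCore p G) ⧸ pPrimeCore p (G ⧸ pCore p G)) p
  let H₁ := (Subgroup.zpowers ((g' : _ ⧸ pCore p ((G ⧸ pCore p G) ⧸ pPrimeCore p (G ⧸ pCore p G))))).comap
    (QuotientGroup.mk' (pCore p ((G ⧸ pCore p G) ⧸ pPrimeCore p (G ⧸ pCore p G))))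
  have hH₁ : IsPGroup p H₁ := by
    rintro ⟨h, hh⟩
    obtain ⟨i, hi⟩ := Subgroup.mem_zpowers_iff.mp (Subgroup.mem_comap.mp hh)
    have h1 : h ^ p ^ k ∈ pCore p ((G ⧸ pCore p G) ⧸ pPrimeCore p (G ⧸ pCore p G)) := by
      rw [← QuotientGroup.eq_one_iff, QuotientGroup.mk_pow]
      have e1 : ((h : _ ⧸ pCore p ((G ⧸ pCore p G) ⧸ pPrimeCore p (G ⧸ pCore p G)))) = (g' : _ ) ^ i := hi.symm
      rw [e1, ← zpow_natCast, zpow_comm, zpow_natCast, hk, one_zpow]
    obtain ⟨j, hj⟩ := hPp ⟨_, h1⟩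
    refine ⟨k + j, Subtype.ext ?_⟩
    have h3 : (h ^ p ^ k) ^ p ^ j = 1 := by
      have := congrArg Subtype.val hj
      simpa using this
    show h ^ p ^ (k + j) = 1
    rw [pow_add, pow_mul, h3]
  have hg₁ : g'⁻¹ ∈ H₁ := by
    apply Subgroup.mem_comap.mpr
    rw [map_inv]
    exact inv_mem (Subgroup.mem_zpowers _)
  have hu₁ : u ∈ H₁ := by
    apply Subgroup.mem_comap.mpr
    have : QuotientGroup.mk' (pCore p ((G ⧸ pCore p G) ⧸ pPrimeCore p (G ⧸ pCore p G))) u = 1 :=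
      (QuotientGroup.eq_one_iff _).mpr hu
    rw [this]
    exact one_mem _
  obtain ⟨P, hP, hlift⟩ := exists_sylow_lift (p := p) (QuotientGroup.mk'_surjective (pPrimeCore p (G ⧸ pCore p G))) hH₁
  obtain ⟨x, hx, hxg⟩ := hlift _ hg₁
  obtain ⟨x', hx', hxg'⟩ := hlift _ (mul_mem hg₁ hu₁)
  have hc := last_pow_comm_B (p := p) hp2 hsol hcore (a := e + 1) (by omega) hexp hP hx hx'
  simp only [Nat.add_sub_cancel] at hc
  apply hnc
  rw [← hxg', ← hxg, ← map_pow, ← map_pow, ← map_mul, ← map_mul, hc]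

/-- **`p`-length at most `2 e`.** -/
theorem plength_two (hp2 : p ≠ 2) : ∀ (e : ℕ) (G : Type u) [Group G] [Finite G], IsPSolvable p G →
    (∀ x : G, (∃ k, x ^ p ^ k = 1) → x ^ p ^ e = 1) → PLengthLE p (2 * e) G := by
  intro e
  induction e with
  | zero =>
    intro G _ _ _ hexp
    rw [mul_zero, pLengthLE_zero_iff]
    by_contra hcop
    have hd : p ∣ Nat.card G := by
      rw [Nat.coprime_comm] at hcop
      exact not_not.1 ((Nat.Prime.coprime_iff_not_dvd hp.out).not.1 hcop)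
    obtain ⟨x, hx⟩ := exists_prime_orderOf_dvd_card' p hd
    have h1 : x ^ p ^ 1 = 1 := by rw [pow_one, ← hx]; exact pow_orderOf_eq_one x
    have h2 := hexp x ⟨1, h1⟩
    rw [pow_zero, pow_one] at h2
    rw [h2, orderOf_one] at hx
    exact hp.out.ne_one hx.symm
  | succ e ih =>
    intro G _ _ hsol hexp
    rw [show 2 * (e + 1) = 2 * e + 1 + 1 by ring]
    apply pLengthLE_succ_of_layer
    apply pLengthLE_succ_of_layer
    have hcore := pPrimeCore_quotient (G := G) p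
    have hsol₁ := isPSolvable_quotient hsol (pPrimeCore p G)
    have hexp₁ : ∀ y : G ⧸ pPrimeCore p G, (∃ k, y ^ p ^ k = 1) → y ^ p ^ (e + 1) = 1 := by
      rintro y ⟨k, hk⟩
      obtain ⟨x, rfl, hx⟩ := exists_pow_lift _ (pPrimeCore_coprime p) y k hk
      rw [← QuotientGroup.mk_pow, hexp x ⟨k, hx⟩]
      rfl
    have hsol₂ := isPSolvable_quotient hsol₁ (pCore p (G ⧸ pPrimeCore p G))
    have hsol₃ := isPSolvable_quotient hsol₂ (pPrimeCore p ((G ⧸ pPrimeCore p G) ⧸ pCore p (G ⧸ pPrimeCore p G)))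
    apply ih _ (isPSolvable_quotient hsol₃ _)
    rintro z ⟨k, hk⟩
    exact exp_drop_two hp2 hsol₁ hcore e hexp₁ z k hk

end Cfsg.Agent.Lib.LastPow.Main
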